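import Mathlib
import Cfsg.Agent.Lib.Helper55.Fischer

/-!
# Connectedness of the commuting graph complement on `D_x`

Helper library (helper55).  For a primitive class `D` of 3-transpositions with
non-commuting pairs, the set `D_x` of members other than `x` commuting with `x` is
connected under the relation "do not commute"; hence it is a single conjugacy class of
the subgroup it generates.
-/

set_option autoImplicit false

namespace Cfsg.Agent.Lib.Helper55.FischerDx

open Cfsg.Agent.Lib.Helper55.Fischer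

variable {G : Type*} [Group G]

/-- the members of `D` other than `x` commuting with `x`. -/
def Dx (D : Set G) (x : G) : Set G := {y | y ∈ D ∧ y ≠ x ∧ Commute x y}

/-- two members of `D_x` which do not commute. -/
def Step (D : Set G) (x u v : G) : Prop := u ∈ Dx D x ∧ v ∈ Dx D x ∧ ¬ Commute u v

/-- connectedness inside `D_x` under non-commuting steps. -/
def Conn (D : Set G) (x u v : G) : Prop := Relation.ReflTransGen (Step D x) u v

/-- the connected component of `u` in `D_x`. -/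
def C (D : Set G) (x u : G) : Set G := {v | Conn D x u v}

theorem Conn.symm {D : Set G} {x u v : G} (h : Conn D x u v) : Conn D x v u := by
  induction h with
  | refl => exact Relation.ReflTransGen.refl
  | tail _ h2 ih =>
    exact Relation.ReflTransGen.head ⟨h2.2.1, h2.1, fun hc => h2.2.2 hc.symm⟩ ih

theorem Conn.trans {D : Set G} {x u v w : G} (h : Conn D x u v) (h' : Conn D x v w) :
    Conn D x u w :=
  Relation.ReflTransGen.trans h h'

theorem Conn.refl (D : Set G) (x u : G) : Conn D x u u := Relation.ReflTransGen.refl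

theorem Conn.mem {D : Set G} {x u v : G} (h : Conn D x u v) (hu : u ∈ Dx D x) :
    v ∈ Dx D x := by
  induction h with
  | refl => exact hu
  | tail _ h2 _ => exact h2.2.1

theorem Conn.of_not_commute {D : Set G} {x u v : G} (hu : u ∈ Dx D x) (hv : v ∈ Dx D x)
    (h : ¬ Commute u v) : Conn D x u v :=
  Relation.ReflTransGen.single ⟨hu, hv, h⟩

theorem commute_of_not_conn {D : Set G} {x u v : G} (hu : u ∈ Dx D x) (hv : v ∈ Dx D x)
    (h : ¬ Conn D x u v) : Commute u v := by
  by_contra hc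
  exact h (Conn.of_not_commute hu hv hc)

/-- connected members of `D_x` are conjugate under the subgroup generated by `D_x`. -/
theorem Conn.exists_conj {D : Set G} (hTT : TT D) {x u v : G} (h : Conn D x u v) :
    ∃ g ∈ Subgroup.closure (Dx D x), g * u * g⁻¹ = v := by
  induction h with
  | refl => exact ⟨1, Subgroup.one_mem _, by simp⟩
  | @tail b c _ h2 ih =>
    obtain ⟨g, hg, hgu⟩ := ih
    obtain ⟨hb, hc, hnc⟩ := h2
    have hs3 := (hTT.s3 hb.1 hc.1 hnc).1
    refine ⟨(c * b * c) * g, ?_, ?_⟩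
    · exact Subgroup.mul_mem _ (Subgroup.mul_mem _ (Subgroup.mul_mem _
        (Subgroup.subset_closure hc) (Subgroup.subset_closure hb))
        (Subgroup.subset_closure hc)) hg
    · calc c * b * c * g * u * (c * b * c * g)⁻¹
          = (c * b * c) * (g * u * g⁻¹) * (c * b * c)⁻¹ := by group
        _ = c := by rw [hgu, hs3]

theorem Dx_conj {D : Set G} (hTT : TT D) (g x u : G) :
    g * u * g⁻¹ ∈ Dx D (g * x * g⁻¹) ↔ u ∈ Dx D x := by
  show (g * u * g⁻¹ ∈ D ∧ g * u * g⁻¹ ≠ g * x * g⁻¹ ∧ Commute (g * x * g⁻¹) (g * u * g⁻¹)) ↔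
    (u ∈ D ∧ u ≠ x ∧ Commute x u)
  rw [hTT.conj_iff u g, commute_conj_iff]
  have e : g⁻¹ * (g * u * g⁻¹) * g = u := by group
  rw [e]
  refine and_congr Iff.rfl (and_congr ?_ Iff.rfl)
  rw [not_iff_not]
  constructor
  · intro h; simpa using h
  · rintro rfl; rfl

theorem Dx_equivariant {D : Set G} (hTT : TT D) (g e : G) :
    Dx D (g * e * g⁻¹) = {w | g⁻¹ * w * g ∈ Dx D e} := by
  ext w
  have h := Dx_conj hTT g e (g⁻¹ * w * g)
  have e1 : g * (g⁻¹ * w * g) * g⁻¹ = w := by group
  rw [e1] at h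
  exact h

theorem Step.conj {D : Set G} (hTT : TT D) (g : G) {x u v : G} (h : Step D x u v) :
    Step D (g * x * g⁻¹) (g * u * g⁻¹) (g * v * g⁻¹) := by
  refine ⟨(Dx_conj hTT g x u).mpr h.1, (Dx_conj hTT g x v).mpr h.2.1, ?_⟩
  intro hc
  apply h.2.2
  have r : R u v (g * u * g⁻¹) (g * v * g⁻¹) := ⟨g, rfl, rfl⟩
  exact r.commute_iff.mpr hc

theorem Conn.conj {D : Set G} (hTT : TT D) (g : G) {x u v : G} (h : Conn D x u v) :
    Conn D (g * x * g⁻¹) (g * u * g⁻¹) (g * v * g⁻¹) := by
  induction h with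
  | refl => exact Relation.ReflTransGen.refl
  | tail _ h2 ih => exact Relation.ReflTransGen.tail ih (h2.conj hTT g)

theorem C_conj {D : Set G} (hTT : TT D) (g x u : G) :
    C D (g * x * g⁻¹) (g * u * g⁻¹) = {w | g⁻¹ * w * g ∈ C D x u} := by
  ext w
  constructor
  · intro hw
    have h := Conn.conj hTT g⁻¹ hw
    have e1 : g⁻¹ * (g * x * g⁻¹) * g⁻¹⁻¹ = x := by group
    have e2 : g⁻¹ * (g * u * g⁻¹) * g⁻¹⁻¹ = u := by group
    rw [e1, e2, inv_inv] at h
    exact h
  · intro hw
    have h := Conn.conj hTT g hw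
    have e : g * (g⁻¹ * w * g) * g⁻¹ = w := by group
    rw [e] at h
    exact h

/-- all components of all `D_x` have the same size. -/
theorem C_ncard [Finite G] {D : Set G} (hTT : TT D) (hprim : Prim D)
    (hnc : ∀ a ∈ D, ∃ c ∈ D, ¬ Commute a c) {x y u v : G} (hx : x ∈ D) (hy : y ∈ D)
    (hu : u ∈ Dx D x) (hv : v ∈ Dx D y) : (C D x u).ncard = (C D y v).ncard := by
  obtain ⟨g, rfl⟩ := hTT.trans x hx y hy
  have hu' : g * u * g⁻¹ ∈ Dx D (g * x * g⁻¹) := (Dx_conj hTT g x u).mpr hu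
  obtain ⟨k, hk, hkv⟩ := trans_comm hTT hprim hy hu'.1 hv.1 hu'.2.1 hv.2.1 hu'.2.2 hv.2.2
    (hnc _ hy)
  have hkx : k * (g * x * g⁻¹) * k⁻¹ = g * x * g⁻¹ := by rw [hk.eq, mul_inv_cancel_right]
  have e : C D (g * x * g⁻¹) v = {w | k⁻¹ * w * k ∈ C D (g * x * g⁻¹) (g * u * g⁻¹)} := by
    have h := C_conj hTT k (g * x * g⁻¹) (g * u * g⁻¹)
    rw [hkx, hkv] at h
    exact h
  rw [e, ncard_conj_preimage, C_conj hTT g x u, ncard_conj_preimage]

/-- the star lemma: if `x` and `e` lie in different components of `D_a`, then `a` and `e`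
lie in different components of `D_x`, and the components of `e` in `D_a` and `D_x` agree. -/
theorem star [Finite G] {D : Set G} (hTT : TT D) (hprim : Prim D)
    (hnc : ∀ a ∈ D, ∃ c ∈ D, ¬ Commute a c) {a x e : G} (ha : a ∈ D) (hx : x ∈ Dx D a)
    (he : e ∈ Dx D a) (hn : ¬ Conn D a x e) :
    e ∈ Dx D x ∧ ¬ Conn D x a e ∧ C D a e = C D x e := by
  have key : ∀ w, Conn D a e w → w ∈ Dx D x := by
    intro w hw
    have hwa : w ∈ Dx D a := hw.mem he
    have hnw : ¬ Conn D a x w := fun h => hn (h.trans hw.symm)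
    refine ⟨hwa.1, ?_, commute_of_not_conn hx hwa hnw⟩
    rintro rfl
    exact hnw (Conn.refl _ _ _)
  have hex : e ∈ Dx D x := key e (Conn.refl _ _ _)
  have hsub : ∀ w, Conn D a e w → Conn D x e w := by
    intro w hw
    induction hw with
    | refl => exact Conn.refl _ _ _
    | @tail b c h1 h2 ih =>
      exact Relation.ReflTransGen.tail ih ⟨key b h1, key c (h1.tail h2), h2.2.2⟩
  have hcard : (C D a e).ncard = (C D x e).ncard := C_ncard hTT hprim hnc ha hx.1 he hex
  have heq : C D a e = C D x e :=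
    Set.eq_of_subset_of_ncard_le (fun w hw => hsub w hw) hcard.ge (Set.toFinite _)
  refine ⟨hex, ?_, heq⟩
  intro hc
  have h1 : a ∈ C D x e := hc.symm
  rw [← heq] at h1
  have h2 : a ∈ Dx D a := Conn.mem h1 he
  exact h2.2.1 rfl

theorem comp_sub [Finite G] {D : Set G} (hTT : TT D) (hprim : Prim D)
    (hnc : ∀ a ∈ D, ∃ c ∈ D, ¬ Commute a c) {x a b : G} (hx : x ∈ D) (ha : a ∈ Dx D x)
    (hb : b ∈ Dx D x) (hn : ¬ Conn D x a b) : C D a x ⊆ C D b x := by
  obtain ⟨hba, hn1, -⟩ := star hTT hprim hnc hx ha hb hn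
  have hxa : x ∈ Dx D a := ⟨hx, Ne.symm ha.2.1, ha.2.2.symm⟩
  intro e he
  have he' : Conn D a x e := he
  have hea : e ∈ Dx D a := he'.mem hxa
  have hn2 : ¬ Conn D a b e := fun h => hn1 (he'.trans h.symm)
  obtain ⟨heb, -, heq⟩ := star hTT hprim hnc ha.1 hba hea hn2
  have h1 : x ∈ C D a e := he'.symm
  rw [heq] at h1
  exact Conn.symm h1

/-- `D_x` is connected under non-commuting steps. -/
theorem connected [Finite G] {D : Set G} (hTT : TT D) (hprim : Prim D)
    (hnc : ∀ a ∈ D, ∃ c ∈ D, ¬ Commute a c) {x a b : G} (hx : x ∈ D) (ha : a ∈ Dx D x)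
    (hb : b ∈ Dx D x) : Conn D x a b := by
  by_contra hn
  have hn' : ¬ Conn D x b a := fun h => hn h.symm
  have hxa : x ∈ Dx D a := ⟨hx, Ne.symm ha.2.1, ha.2.2.symm⟩
  have hE : C D a x = C D b x :=
    Set.Subset.antisymm (comp_sub hTT hprim hnc hx ha hb hn)
      (comp_sub hTT hprim hnc hx hb ha hn')
  have hall : ∀ y ∈ Dx D x, C D y x = C D a x := by
    intro y hy
    by_cases h1 : Conn D x a y
    · have h2 : ¬ Conn D x b y := fun h => hn (h1.trans h.symm)
      have h2' : ¬ Conn D x y b := fun h => h2 h.symm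
      rw [hE]
      exact Set.Subset.antisymm (comp_sub hTT hprim hnc hx hy hb h2')
        (comp_sub hTT hprim hnc hx hb hy h2)
    · have h1' : ¬ Conn D x y a := fun h => h1 h.symm
      exact Set.Subset.antisymm (comp_sub hTT hprim hnc hx hy ha h1')
        (comp_sub hTT hprim hnc hx ha hy h1)
  have hcomm : ∀ e ∈ C D a x, ∀ y ∈ Dx D x, e ∈ Dx D y := by
    intro e he y hy
    rw [← hall y hy] at he
    have hxy : x ∈ Dx D y := ⟨hx, Ne.symm hy.2.1, hy.2.2.symm⟩
    exact Conn.mem he hxy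
  by_cases hcase : ∃ v ∈ Dx D a, ¬ Commute x v
  · obtain ⟨v, hva, hxv⟩ := hcase
    have hvE : v ∈ C D a x := Conn.of_not_commute hxa hva hxv
    have hsub : Dx D x ⊆ Dx D v := by
      intro y hy
      have h := hcomm v hvE y hy
      exact ⟨hy.1, Ne.symm h.2.1, h.2.2.symm⟩
    have hvx : v ≠ x := by
      rintro rfl; exact hxv (Commute.refl _)
    have hconst := block_of_equivariant hTT hprim (fun z => Dx D z)
      (fun g e => Dx_equivariant hTT g e) hx hva.1 hvx hsub
    have h1 : a ∈ Dx D a := by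
      have h := hconst a ha.1
      rw [h]; exact ha
    exact h1.2.1 rfl
  · push Not at hcase
    have hsub : (fun z => {y | y ∈ D ∧ Commute z y}) a ⊆
        (fun z => {y | y ∈ D ∧ Commute z y}) x := by
      rintro y ⟨hyD, hay⟩
      by_cases hya : y = a
      · subst hya; exact ⟨hyD, ha.2.2⟩
      · exact ⟨hyD, hcase y ⟨hyD, hya, hay⟩⟩
    have hF : ∀ g e, (fun z => {y | y ∈ D ∧ Commute z y}) (g * e * g⁻¹) =
        {w | g⁻¹ * w * g ∈ (fun z => {y | y ∈ D ∧ Commute z y}) e} := by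
      intro g e
      ext w
      show (w ∈ D ∧ Commute (g * e * g⁻¹) w) ↔ (g⁻¹ * w * g ∈ D ∧ Commute e (g⁻¹ * w * g))
      rw [hTT.conj_iff' w g, commute_conj_iff]
    have hconst := block_of_equivariant hTT hprim (fun z => {y | y ∈ D ∧ Commute z y}) hF
      ha.1 hx (Ne.symm ha.2.1) hsub
    obtain ⟨c, hcD, hac⟩ := hnc a ha.1
    have h1 : c ∈ {y | y ∈ D ∧ Commute a y} := by
      have h := hconst c hcD
      rw [← h]; exact ⟨hcD, Commute.refl c⟩
    exact hac h1.2

end Cfsg.Agent.Lib.Helper55.FischerDx
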