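import Mathlib
import Cfsg.Agent.Lib.Helper55.Fischer
import Cfsg.Agent.Lib.Helper55.FischerDx
import Cfsg.Agent.Lib.Helper24.SymFive

/-!
# Twins in `D_x` for a class of 3-transpositions

Helper library (helper55).  Two non-commuting members `b`, `w` of `D_x` are twins when every
other member of `D_x` commutes with both or with neither.  A non-central odd normal subgroup
of `⟨D_x⟩` produces twins, and twins can be moved along paths of length three in the
non-commuting graph (inside a copy of the symmetric group of degree five).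
-/

set_option autoImplicit false

namespace Cfsg.Agent.Lib.Helper55.FischerTwin

open Cfsg.Agent.Lib.Helper55.Fischer Cfsg.Agent.Lib.Helper55.FischerDx

variable {G : Type*} [Group G]

theorem cube_of_not_commute {D : Set G} (hTT : TT D) {p q : G} (hp : p ∈ D) (hq : q ∈ D)
    (hnc : ¬ Commute p q) : (p * q) ^ 3 = 1 := by
  have hb := hTT.braid p hp q hq hnc
  have hp2 := hTT.sq p hp
  have hq2 := hTT.sq q hq
  calc (p * q) ^ 3 = (p * q * p) * (q * p * q) := by rw [pow_succ, pow_two]; group
    _ = (p * q * p) * (p * q * p) := by rw [hb]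
    _ = p * q * (p * p) * q * p := by group
    _ = p * (q * q) * p := by rw [hp2]; group
    _ = 1 := by rw [hq2, mul_one, hp2]

/-- A member commuting with the product of two non-commuting members commutes with both. -/
theorem commute_of_commute_mul {D : Set G} (hTT : TT D) {x y y' : G} (hx : x ∈ D) (hy : y ∈ D)
    (hy' : y' ∈ D) (hnc : ¬ Commute y y') (hc : Commute x (y * y')) :
    Commute x y ∧ Commute x y' := by
  have hx2 := hTT.sq x hx
  have hy2 := hTT.sq y hy
  have hy'2 := hTT.sq y' hy'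
  have h1 : x * (y * y') = y * y' * x := hc.eq
  have key : Commute x y := by
    by_contra hxy
    have hb := hTT.braid x hx y hy hxy
    have e1 : x * y * x = y' * x * y' := by
      calc x * y * x = y * x * y := hb
        _ = y * x * y * (y' * y') := by rw [hy'2, mul_one]
        _ = y * (x * (y * y')) * y' := by group
        _ = y * (y * y' * x) * y' := by rw [h1]
        _ = (y * y) * y' * x * y' := by group
        _ = y' * x * y' := by rw [hy2, one_mul]
    by_cases hxy' : Commute x y'
    · have e2 : y' * x * y' = x := by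
        rw [← hxy'.eq, mul_assoc, hy'2, mul_one]
      rw [e2] at e1
      have e3 : x * y = 1 := by
        have : x * y * x = 1 * x := by rw [one_mul]; exact e1
        exact mul_right_cancel this
      apply hxy
      have e4 : y = x⁻¹ := (inv_eq_of_mul_eq_one_right e3).symm
      rw [e4]
      exact (Commute.refl x).inv_right
    · have hb' := hTT.braid x hx y' hy' hxy'
      rw [← hb'] at e1
      have e3 : y = y' := mul_left_cancel (mul_right_cancel e1)
      subst e3
      exact hnc (Commute.refl _)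
  refine ⟨key, ?_⟩
  show x * y' = y' * x
  have h2 : y * (x * y') = y * (y' * x) := by
    calc y * (x * y') = (y * x) * y' := by group
      _ = (x * y) * y' := by rw [key.eq]
      _ = x * (y * y') := by group
      _ = y * y' * x := h1
      _ = y * (y' * x) := by group
  exact mul_left_cancel h2

/-- A path `a - w - y - x` in the non-commuting graph lies in a copy of `S₅`. -/
theorem s5_path {D : Set G} (hTT : TT D) {a w y x : G} (ha : a ∈ D) (hw : w ∈ D) (hy : y ∈ D)
    (hx : x ∈ D) (haw : ¬ Commute a w) (hwy : ¬ Commute w y) (hyx : ¬ Commute y x)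
    (hay : Commute a y) (hax : Commute a x) (hwx : Commute w x) :
    (∃ g : G, g * a * g⁻¹ = x ∧ g * x * g⁻¹ = a ∧ g * w * g⁻¹ = x * y * x ∧
      g * y * g⁻¹ = a * w * a) ∧ Commute y (w * (x * y * x) * w) := by
  have hne : a ≠ w := by rintro rfl; exact haw (Commute.refl _)
  obtain ⟨φ, -, h0, h1, h2, h3⟩ := Cfsg.Agent.Lib.Helper24.SymFive.exists_symFive_hom
    (a := a) (b := w) (c := y) (d := x) (hTT.sq a ha) (hTT.sq w hw) (hTT.sq y hy) (hTT.sq x hx)
    (hTT.braid w hw a ha (fun h => haw h.symm)) (hTT.braid y hy w hw (fun h => hwy h.symm))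
    (hTT.braid x hx y hy (fun h => hyx h.symm)) hay.eq.symm hax.eq.symm hwx.eq.symm hne
  refine ⟨⟨φ (Equiv.swap 0 3 * Equiv.swap 1 4), ?_, ?_, ?_, ?_⟩, ?_⟩
  · rw [← h0, ← h3, ← map_inv, ← map_mul, ← map_mul]
    congr 1
    decide
  · rw [← h0, ← h3, ← map_inv, ← map_mul, ← map_mul]
    congr 1
    decide
  · rw [← h1, ← h2, ← h3]
    simp only [← map_mul, ← map_inv]
    congr 1
    decide
  · rw [← h0, ← h1, ← h2]
    simp only [← map_mul, ← map_inv]
    congr 1
    decide
  · show y * (w * (x * y * x) * w) = w * (x * y * x) * w * y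
    rw [← h1, ← h2, ← h3]
    simp only [← map_mul]
    congr 1
    decide

/-- `b` and `w` are twins in `D_x`. -/
def Twin (D : Set G) (x b w : G) : Prop :=
  b ∈ Dx D x ∧ w ∈ Dx D x ∧ ¬ Commute b w ∧
    ∀ f ∈ Dx D x, f ≠ b → f ≠ w → (Commute f b ↔ Commute f w)

theorem Twin.symm {D : Set G} {x b w : G} (h : Twin D x b w) : Twin D x w b :=
  ⟨h.2.1, h.1, fun hc => h.2.2.1 hc.symm, fun f hf h1 h2 => (h.2.2.2 f hf h2 h1).symm⟩

theorem Twin.trans {D : Set G} {x p q r : G} (h : Twin D x p q) (h' : Twin D x q r)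
    (hpr : p ≠ r) : Twin D x p r := by
  have hpq : p ≠ q := by rintro rfl; exact h.2.2.1 (Commute.refl _)
  refine ⟨h.1, h'.2.1, ?_, ?_⟩
  · intro hc
    exact h.2.2.1 ((h'.2.2.2 p h.1 hpq hpr).mpr hc)
  · intro f hf hfp hfr
    by_cases hfq : f = q
    · subst hfq
      constructor
      · intro hc; exact absurd hc.symm h.2.2.1
      · intro hc; exact absurd hc h'.2.2.1
    · exact (h.2.2.2 f hf hfp hfq).trans (h'.2.2.2 f hf hfq hfr)

theorem Twin.conj {D : Set G} (hTT : TT D) (g : G) {x b w : G} (h : Twin D x b w) :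
    Twin D (g * x * g⁻¹) (g * b * g⁻¹) (g * w * g⁻¹) := by
  refine ⟨(Dx_conj hTT g x b).mpr h.1, (Dx_conj hTT g x w).mpr h.2.1, ?_, ?_⟩
  · intro hc
    apply h.2.2.1
    have r : R b w (g * b * g⁻¹) (g * w * g⁻¹) := ⟨g, rfl, rfl⟩
    exact r.commute_iff.mpr hc
  · intro f hf hfb hfw
    have hf' : g⁻¹ * f * g ∈ Dx D x := by
      rw [Dx_equivariant hTT g x] at hf; exact hf
    have hfb' : g⁻¹ * f * g ≠ b := by
      intro e; apply hfb; rw [← e]; group
    have hfw' : g⁻¹ * f * g ≠ w := by
      intro e; apply hfw; rw [← e]; group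
    have key := h.2.2.2 _ hf' hfb' hfw'
    have c1 : ∀ v : G, Commute f (g * v * g⁻¹) ↔ Commute (g⁻¹ * f * g) v := by
      intro v
      constructor
      · intro hc; exact ((commute_conj_iff g v f).mp hc.symm).symm
      · intro hc; exact ((commute_conj_iff g v f).mpr hc.symm).symm
    rw [c1, c1]; exact key

/-- A non-central normal subgroup of odd order of `⟨D_x⟩` produces twins. -/
theorem exists_twin_of_odd_normal {D : Set G} (hTT : TT D) {x : G}
    (N : Subgroup G)
    (hN1 : ∀ e ∈ N, e * e = 1 → e = 1)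
    (hN2 : ∀ h ∈ Subgroup.closure (Dx D x), ∀ n ∈ N, h * n * h⁻¹ ∈ N)
    (hN4 : N ≤ Subgroup.closure (Dx D x))
    (hN3 : ∃ n ∈ N, ∃ a ∈ Dx D x, ¬ Commute n a) :
    ∃ a w, Twin D x a w := by
  obtain ⟨n, hn, a, ha, hna⟩ := hN3
  have hHx : ∀ h ∈ Subgroup.closure (Dx D x), Commute h x := by
    intro h hh
    have hle : Subgroup.closure (Dx D x) ≤ Subgroup.centralizer {x} := by
      rw [Subgroup.closure_le]
      intro e he
      rw [SetLike.mem_coe, Subgroup.mem_centralizer_iff]
      intro z hz
      rw [Set.mem_singleton_iff] at hz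
      subst hz
      exact he.2.2.eq
    have := hle hh
    rw [Subgroup.mem_centralizer_iff] at this
    exact (this x rfl).symm
  have hnx : Commute n x := hHx n (hN4 hn)
  have hwDx : n⁻¹ * a * n ∈ Dx D x := by
    have h1 := (Dx_conj hTT n⁻¹ x a).mpr ha
    rw [inv_inv] at h1
    have e : n⁻¹ * x * n = x := by
      rw [mul_assoc, ← hnx.eq, ← mul_assoc, inv_mul_cancel, one_mul]
    rw [e] at h1
    exact h1
  obtain ⟨w, hw⟩ : ∃ w, w = n⁻¹ * a * n := ⟨_, rfl⟩
  rw [← hw] at hwDx
  have haH : a ∈ Subgroup.closure (Dx D x) := Subgroup.subset_closure ha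
  have haw : a * w ∈ N := by
    have e : a * w = (a * n⁻¹ * a⁻¹) * n := by rw [hw, hTT.inv_eq ha.1]; group
    rw [e]
    exact N.mul_mem (hN2 a haH n⁻¹ (N.inv_mem hn)) hn
  have hwa : w * a ∈ N := by
    have e : w * a = (a * w)⁻¹ := by
      rw [mul_inv_rev, hTT.inv_eq ha.1, hTT.inv_eq hwDx.1]
    rw [e]; exact N.inv_mem haw
  have hne : a ≠ w := by
    intro e
    apply hna
    show n * a = a * n
    calc n * a = n * w := by rw [← e]
      _ = a * n := by rw [hw]; group
  have hnc : ¬ Commute a w := by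
    intro hc
    have h2 : (a * w) * (a * w) = 1 := by
      calc (a * w) * (a * w) = a * (w * a) * w := by group
        _ = a * (a * w) * w := by rw [hc.eq]
        _ = (a * a) * (w * w) := by group
        _ = 1 := by rw [hTT.sq a ha.1, hTT.sq w hwDx.1, one_mul]
    have h1 := hN1 _ haw h2
    exact hne ((hTT.inv_eq ha.1).symm.trans (inv_eq_of_mul_eq_one_right h1))
  have aux : ∀ p q : G, p ∈ Dx D x → q ∈ Dx D x → q * p ∈ N → p * q ∈ N → ¬ Commute p q →
      ∀ f ∈ Dx D x, f ≠ p → Commute f p → Commute f q := by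
    intro p q hp hq hqp hpq hncpq f hf hfp hcfp
    by_contra hfq
    obtain ⟨φ, -, h1, h2, h3⟩ := Cfsg.Agent.S5344.result hTT.set3 hf.1 hq.1 hp.1 hfp hcfp hfq
      (fun h => hncpq h.symm)
    have e : f * p = (q * p) * ((q * f) * (p * q) * (q * f)⁻¹) := by
      rw [← h1, ← h2, ← h3]
      simp only [← map_mul, ← map_inv]
      congr 1
      decide
    have hfpN : f * p ∈ N := by
      rw [e]
      exact N.mul_mem hqp (hN2 _ (Subgroup.mul_mem _ (Subgroup.subset_closure hq)
        (Subgroup.subset_closure hf)) _ hpq)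
    have h2' : (f * p) * (f * p) = 1 := by
      calc (f * p) * (f * p) = f * (p * f) * p := by group
        _ = f * (f * p) * p := by rw [hcfp.eq]
        _ = (f * f) * (p * p) := by group
        _ = 1 := by rw [hTT.sq f hf.1, hTT.sq p hp.1, one_mul]
    have h1' := hN1 _ hfpN h2'
    exact hfp ((hTT.inv_eq hf.1).symm.trans (inv_eq_of_mul_eq_one_right h1'))
  refine ⟨a, w, ha, hwDx, hnc, ?_⟩
  intro f hf hfa hfw
  constructor
  · intro hc
    exact aux a w ha hwDx hwa haw hnc f hf hfa hc
  · intro hc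
    exact aux w a hwDx ha haw hwa (fun h => hnc h.symm) f hf hfw hc

/-- Along a path `a - w - y - x`, the pair `a`, `w` are twins in `D_x` exactly when `x`, `y`
are twins in `D_a`. -/
theorem twin_swap {D : Set G} (hTT : TT D) {a w y x : G} (ha : a ∈ D) (hw : w ∈ D) (hy : y ∈ D)
    (hx : x ∈ D) (haw : ¬ Commute a w) (hwy : ¬ Commute w y) (hyx : ¬ Commute y x)
    (hay : Commute a y) (hax : Commute a x) (hwx : Commute w x) :
    Twin D x a w ↔ Twin D a x y := by
  obtain ⟨⟨g, h1, h2, h3, h4⟩, -⟩ := s5_path hTT ha hw hy hx haw hwy hyx hay hax hwx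
  have hx2 := hTT.sq x hx
  have ha2 := hTT.sq a ha
  constructor
  · intro h
    have t1 := h.conj hTT g
    rw [h1, h2, h3] at t1
    have t2 := t1.conj hTT x
    have e1 : x * a * x⁻¹ = a := by rw [← hax.eq, mul_assoc, mul_inv_cancel, mul_one]
    have e2 : x * x * x⁻¹ = x := by group
    have e3 : x * (x * y * x) * x⁻¹ = y := by
      calc x * (x * y * x) * x⁻¹ = (x * x) * y := by group
        _ = y := by rw [hx2, one_mul]
    rw [e1, e2, e3] at t2
    exact t2
  · intro h
    have t1 := h.conj hTT g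
    rw [h1, h2, h4] at t1
    have t2 := t1.conj hTT a
    have e1 : a * x * a⁻¹ = x := by rw [hax.eq, mul_assoc, mul_inv_cancel, mul_one]
    have e2 : a * a * a⁻¹ = a := by group
    have e3 : a * (a * w * a) * a⁻¹ = w := by
      calc a * (a * w * a) * a⁻¹ = (a * a) * w := by group
        _ = w := by rw [ha2, one_mul]
    rw [e1, e2, e3] at t2
    exact t2

/-- If `x`, `y` are twins in `D_a`, then `a` and every member of `D_x` not commuting with `y`
are twins in `D_x`. -/
theorem twin_stepB {D : Set G} (hTT : TT D) {a x y w : G} (ha : a ∈ D) (h : Twin D a x y)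
    (hw : w ∈ Dx D x) (hwy : ¬ Commute w y) : Twin D x a w := by
  have hxa : x ∈ Dx D a := h.1
  have hya : y ∈ Dx D a := h.2.1
  have hxy : ¬ Commute x y := h.2.2.1
  have hwa : ¬ Commute a w := by
    intro hc
    have hwne : w ≠ a := by
      rintro rfl
      exact hwy hya.2.2
    have hwDa : w ∈ Dx D a := ⟨hw.1, hwne, hc⟩
    have hwx : w ≠ x := hw.2.1
    have hwy' : w ≠ y := by rintro rfl; exact hwy (Commute.refl _)
    exact hwy ((h.2.2.2 w hwDa hwx hwy').mp hw.2.2.symm)
  exact (twin_swap hTT ha hw.1 hya.1 hxa.1 hwa hwy (fun h => hxy h.symm) hya.2.2 hxa.2.2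
    hw.2.2.symm).mpr h

end Cfsg.Agent.Lib.Helper55.FischerTwin
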