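import Mathlib
import Cfsg.Agent.Lib.Helper55.Fischer
import Cfsg.Agent.Lib.Helper55.FischerDx
import Cfsg.Agent.Lib.Helper55.FischerTwin

/-!
# Counting with twins: members of `D_x` pairwise do not commute

Helper library (helper55).  For a primitive class `D` of 3-transpositions in which some `D_x`
contains twins, a double count over the rank three graph shows that no two members of any
`D_d` commute.
-/

set_option autoImplicit false

namespace Cfsg.Agent.Lib.Helper55.FischerCount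

open Cfsg.Agent.Lib.Helper55.Fischer Cfsg.Agent.Lib.Helper55.FischerDx
  Cfsg.Agent.Lib.Helper55.FischerTwin

variable {G : Type*} [Group G]

theorem ncard_eq_of_conj (S S' : Set G) (g : G) (h1 : ∀ w ∈ S, g * w * g⁻¹ ∈ S')
    (h2 : ∀ w ∈ S', g⁻¹ * w * g ∈ S) : S.ncard = S'.ncard := by
  have e : S' = (fun w => g * w * g⁻¹) '' S := by
    ext w
    constructor
    · intro hw
      exact ⟨g⁻¹ * w * g, h2 w hw, by group⟩
    · rintro ⟨v, hv, rfl⟩
      exact h1 v hv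
  rw [e]
  exact (Set.ncard_image_of_injective S (fun x y hxy => by simpa using hxy)).symm

theorem R_comm [Finite G] {D : Set G} (hTT : TT D) (hprim : Prim D)
    (hnc : ∀ a ∈ D, ∃ c ∈ D, ¬ Commute a c) {d e d' e' : G} (hd : d ∈ D) (hd' : d' ∈ D)
    (he : e ∈ Dx D d) (he' : e' ∈ Dx D d') : R d e d' e' := by
  obtain ⟨g₁, hg₁⟩ := hTT.trans d hd d' hd'
  have he₁ : g₁ * e * g₁⁻¹ ∈ Dx D d' := by
    have := (Dx_conj hTT g₁ d e).mpr he
    rwa [hg₁] at this
  obtain ⟨g₂, hg₂, hg₂e⟩ := trans_comm hTT hprim hd' he₁.1 he'.1 he₁.2.1 he'.2.1 he₁.2.2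
    he'.2.2 (hnc d' hd')
  refine ⟨g₂ * g₁, ?_, ?_⟩
  · calc g₂ * g₁ * d * (g₂ * g₁)⁻¹ = g₂ * (g₁ * d * g₁⁻¹) * g₂⁻¹ := by group
      _ = g₂ * d' * g₂⁻¹ := by rw [hg₁]
      _ = d' := by rw [hg₂.eq, mul_assoc, mul_inv_cancel, mul_one]
  · calc g₂ * g₁ * e * (g₂ * g₁)⁻¹ = g₂ * (g₁ * e * g₁⁻¹) * g₂⁻¹ := by group
      _ = e' := hg₂e

theorem R_noncomm [Finite G] {D : Set G} (hTT : TT D) (hprim : Prim D)
    (hk : ∀ a ∈ D, ∃ e ∈ D, e ≠ a ∧ Commute a e) {d e d' e' : G} (hd : d ∈ D) (hd' : d' ∈ D)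
    (he : e ∈ D) (he' : e' ∈ D) (hde : ¬ Commute d e) (hde' : ¬ Commute d' e') :
    R d e d' e' := by
  obtain ⟨g₁, hg₁⟩ := hTT.trans d hd d' hd'
  have he₁ : ¬ Commute d' (g₁ * e * g₁⁻¹) := by
    intro hc
    apply hde
    have r : R d e d' (g₁ * e * g₁⁻¹) := ⟨g₁, hg₁, rfl⟩
    exact r.commute_iff.mpr hc
  obtain ⟨g₂, hg₂, hg₂e⟩ := trans_noncomm hTT hprim hd' (hTT.conj e he g₁) he' he₁ hde'
    (hk d' hd')
  refine ⟨g₂ * g₁, ?_, ?_⟩
  · calc g₂ * g₁ * d * (g₂ * g₁)⁻¹ = g₂ * (g₁ * d * g₁⁻¹) * g₂⁻¹ := by group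
      _ = g₂ * d' * g₂⁻¹ := by rw [hg₁]
      _ = d' := by rw [hg₂.eq, mul_assoc, mul_inv_cancel, mul_one]
  · calc g₂ * g₁ * e * (g₂ * g₁)⁻¹ = g₂ * (g₁ * e * g₁⁻¹) * g₂⁻¹ := by group
      _ = e' := hg₂e

theorem Dx_map {D : Set G} (hTT : TT D) {g d d' w : G} (hg : g * d * g⁻¹ = d')
    (hw : w ∈ Dx D d) : g * w * g⁻¹ ∈ Dx D d' := by
  rw [← hg]; exact (Dx_conj hTT g d w).mpr hw

theorem Dx_map' {D : Set G} (hTT : TT D) {g d d' w : G} (hg : g * d * g⁻¹ = d')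
    (hw : w ∈ Dx D d') : g⁻¹ * w * g ∈ Dx D d := by
  rw [← hg, Dx_equivariant hTT g d] at hw; exact hw

theorem Twin_map {D : Set G} (hTT : TT D) {g d d' e e' w : G} (hg : g * d * g⁻¹ = d')
    (hge : g * e * g⁻¹ = e') (hw : Twin D d e w) : Twin D d' e' (g * w * g⁻¹) := by
  rw [← hg, ← hge]; exact hw.conj hTT g

theorem Twin_map' {D : Set G} (hTT : TT D) {g d d' e e' w : G} (hg : g * d * g⁻¹ = d')
    (hge : g * e * g⁻¹ = e') (hw : Twin D d' e' w) : Twin D d e (g⁻¹ * w * g) := by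
  have h := hw.conj hTT g⁻¹
  rw [inv_inv] at h
  have e1 : g⁻¹ * d' * g = d := by rw [← hg]; group
  have e2 : g⁻¹ * e' * g = e := by rw [← hge]; group
  rw [e1, e2] at h
  exact h

theorem ncard_Dx_of_conj {D : Set G} (hTT : TT D) {g d d' : G} (hg : g * d * g⁻¹ = d') :
    (Dx D d).ncard = (Dx D d').ncard :=
  ncard_eq_of_conj _ _ g (fun _ hw => Dx_map hTT hg hw) (fun _ hw => Dx_map' hTT hg hw)

theorem ncard_inter_of_R {D : Set G} (hTT : TT D) {d e d' e' : G} (h : R d e d' e') :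
    (Dx D d ∩ Dx D e).ncard = (Dx D d' ∩ Dx D e').ncard := by
  obtain ⟨g, hg, hge⟩ := h
  exact ncard_eq_of_conj _ _ g (fun w hw => ⟨Dx_map hTT hg hw.1, Dx_map hTT hge hw.2⟩)
    (fun w hw => ⟨Dx_map' hTT hg hw.1, Dx_map' hTT hge hw.2⟩)

theorem ncard_twin_of_R {D : Set G} (hTT : TT D) {d e d' e' : G} (h : R d e d' e') :
    {w | Twin D d e w}.ncard = {w | Twin D d' e' w}.ncard := by
  obtain ⟨g, hg, hge⟩ := h
  exact ncard_eq_of_conj _ _ g (fun w hw => Twin_map hTT hg hge hw)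
    (fun w hw => Twin_map' hTT hg hge hw)

/-- double counting of a relation between two finite sets. -/
theorem double_count [Finite G] (A B : Set G) (r : G → G → Prop) (m n : ℕ)
    (hA : ∀ a ∈ A, {b | b ∈ B ∧ r a b}.ncard = m)
    (hB : ∀ b ∈ B, {a | a ∈ A ∧ r a b}.ncard ≤ n) :
    A.ncard * m ≤ B.ncard * n := by
  classical
  let _ : Fintype G := Fintype.ofFinite G
  have h := Finset.sum_card_bipartiteAbove_eq_sum_card_bipartiteBelow (s := A.toFinset)
    (t := B.toFinset) (r := r)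
  have h1 : ∀ a ∈ A.toFinset, (B.toFinset.bipartiteAbove r a).card = m := by
    intro a ha
    rw [← hA a (Set.mem_toFinset.mp ha), ← Set.ncard_coe_finset]
    congr 1
    ext b
    simp [Finset.bipartiteAbove]
  have h2 : ∀ b ∈ B.toFinset, (A.toFinset.bipartiteBelow r b).card ≤ n := by
    intro b hb
    have e : ((A.toFinset.bipartiteBelow r b : Finset G) : Set G) = {a | a ∈ A ∧ r a b} := by
      ext a
      simp [Finset.bipartiteBelow]
    rw [← Set.ncard_coe_finset, e]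
    exact hB b (Set.mem_toFinset.mp hb)
  rw [Finset.sum_congr rfl h1, Finset.sum_const, smul_eq_mul] at h
  have h3 : ∑ b ∈ B.toFinset, (A.toFinset.bipartiteBelow r b).card ≤ B.toFinset.card * n := by
    calc ∑ b ∈ B.toFinset, (A.toFinset.bipartiteBelow r b).card
        ≤ ∑ _b ∈ B.toFinset, n := Finset.sum_le_sum h2
      _ = B.toFinset.card * n := by rw [Finset.sum_const, smul_eq_mul]
  rw [Set.ncard_eq_toFinset_card' A, Set.ncard_eq_toFinset_card' B, h]
  exact h3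

theorem Dx_not_subset [Finite G] {D : Set G} (hTT : TT D) (hprim : Prim D) {x y : G}
    (hx : x ∈ D) (hy : y ∈ D) (hne : y ≠ x) (hk : (Dx D x).Nonempty) : ¬ Dx D x ⊆ Dx D y := by
  intro hsub
  have hconst := block_of_equivariant hTT hprim (Dx D) (Dx_equivariant hTT) hx hy hne hsub
  obtain ⟨a, ha⟩ := hk
  have h1 : Dx D a = Dx D x := hconst a ha.1
  have h2 : x ∈ Dx D a := ⟨hx, Ne.symm ha.2.1, ha.2.2.symm⟩
  rw [h1] at h2
  exact h2.2.1 rfl

/-- `D_d` is the disjoint union of `e`, the common neighbours of `d` and `e`, and the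
neighbours of `d` not commuting with `e`. -/
theorem split_card [Finite G] {D : Set G} {d e : G} (he : e ∈ Dx D d) :
    {y | y ∈ D ∧ Commute d y ∧ ¬ Commute e y}.ncard + 1 + (Dx D d ∩ Dx D e).ncard
      = (Dx D d).ncard := by
  have hdisj : Disjoint (Dx D d ∩ Dx D e) {y | y ∈ D ∧ Commute d y ∧ ¬ Commute e y} := by
    rw [Set.disjoint_left]
    rintro y ⟨-, hy⟩ ⟨-, -, hy'⟩
    exact hy' hy.2.2
  have hU : Dx D d \ {e} = (Dx D d ∩ Dx D e) ∪ {y | y ∈ D ∧ Commute d y ∧ ¬ Commute e y} := by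
    ext y
    constructor
    · rintro ⟨hyd, hye⟩
      by_cases hc : Commute e y
      · left; exact ⟨hyd, hyd.1, hye, hc⟩
      · right; exact ⟨hyd.1, hyd.2.2, hc⟩
    · rintro (⟨hyd, hye⟩ | ⟨hyD, hcd, hce⟩)
      · exact ⟨hyd, hye.2.1⟩
      · refine ⟨⟨hyD, ?_, hcd⟩, ?_⟩
        · rintro rfl
          exact hce he.2.2.symm
        · rintro rfl
          exact hce (Commute.refl _)
  have h1 := Set.ncard_sdiff_singleton_add_one he (Set.toFinite _)
  have h2 := Set.ncard_union_eq hdisj (Set.toFinite _) (Set.toFinite _)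
  rw [← hU] at h2
  omega

/-- If some `D_x` contains twins, no two members of any `D_d` commute. -/
theorem pairwise_noncomm [Finite G] {D : Set G} (hTT : TT D) (hprim : Prim D)
    (hnc : ∀ a ∈ D, ∃ c ∈ D, ¬ Commute a c) {x a w : G} (hx : x ∈ D) (htw : Twin D x a w) :
    ∀ d ∈ D, ∀ e ∈ Dx D d, ∀ f ∈ Dx D d, e ≠ f → ¬ Commute e f := by
  classical
  have haDx : a ∈ Dx D x := htw.1
  have hk : ∀ d ∈ D, ∃ e ∈ D, e ≠ d ∧ Commute d e := by
    intro d hd
    obtain ⟨g, rfl⟩ := hTT.trans x hx d hd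
    have := (Dx_conj hTT g x a).mpr haDx
    exact ⟨_, this.1, this.2.1, this.2.2⟩
  obtain ⟨y₀, hy₀, hxy₀⟩ := hnc x hx
  obtain ⟨k, hk_def⟩ : ∃ k, k = (Dx D x).ncard := ⟨_, rfl⟩
  obtain ⟨lam, hlam⟩ : ∃ lam, lam = (Dx D x ∩ Dx D a).ncard := ⟨_, rfl⟩
  obtain ⟨mu, hmu⟩ : ∃ mu, mu = (Dx D x ∩ Dx D y₀).ncard := ⟨_, rfl⟩
  obtain ⟨tau, htau⟩ : ∃ tau, tau = {w | Twin D x a w}.ncard := ⟨_, rfl⟩
  obtain ⟨l, hl⟩ : ∃ l, l = {y | y ∈ D ∧ ¬ Commute x y}.ncard := ⟨_, rfl⟩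
  have c1 : ∀ d ∈ D, (Dx D d).ncard = k := by
    intro d hd
    obtain ⟨g, hg⟩ := hTT.trans x hx d hd
    rw [hk_def]
    exact (ncard_Dx_of_conj hTT hg).symm
  have c2 : ∀ d ∈ D, ∀ e ∈ Dx D d, (Dx D d ∩ Dx D e).ncard = lam := by
    intro d hd e he
    rw [hlam]
    exact ncard_inter_of_R hTT (R_comm hTT hprim hnc hd hx he haDx)
  have c3 : ∀ d ∈ D, ∀ e ∈ D, ¬ Commute d e → (Dx D d ∩ Dx D e).ncard = mu := by
    intro d hd e he hde
    rw [hmu]
    exact ncard_inter_of_R hTT (R_noncomm hTT hprim hk hd hx he hy₀ hde hxy₀)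
  have c4 : ∀ d ∈ D, ∀ e ∈ Dx D d, {w | Twin D d e w}.ncard = tau := by
    intro d hd e he
    rw [htau]
    exact ncard_twin_of_R hTT (R_comm hTT hprim hnc hd hx he haDx)
  have htau1 : 1 ≤ tau := by
    rw [htau]
    exact (Set.ncard_pos (Set.toFinite _)).mpr ⟨w, htw⟩
  have hk1 : 1 ≤ k := by
    rw [hk_def]
    exact (Set.ncard_pos (Set.toFinite _)).mpr ⟨a, haDx⟩
  have hy₀x : y₀ ≠ x := by rintro rfl; exact hxy₀ (Commute.refl _)
  have hmuk : mu < k := by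
    by_contra hcon
    push Not at hcon
    apply Dx_not_subset hTT hprim hx hy₀ hy₀x ⟨a, haDx⟩
    have h1 : Dx D x ∩ Dx D y₀ = Dx D x :=
      Set.eq_of_subset_of_ncard_le Set.inter_subset_left (by rw [← hmu, ← hk_def]; exact hcon)
        (Set.toFinite _)
    rw [← h1]; exact Set.inter_subset_right
  -- the number of neighbours of `b ∈ D_x` outside `x ∪ D_x`
  obtain ⟨n₁, hn₁⟩ : ∃ n₁, n₁ = {y | y ∈ D ∧ Commute x y ∧ ¬ Commute a y}.ncard := ⟨_, rfl⟩
  have hn1 : n₁ + 1 + lam = k := by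
    have := split_card (D := D) haDx
    rw [c1 x hx, c2 x hx a haDx, ← hn₁] at this
    exact this
  have htn : tau ≤ n₁ := by
    rw [htau, hn₁]
    apply Set.ncard_le_ncard _ (Set.toFinite _)
    intro v hv
    exact ⟨hv.2.1.1, hv.2.1.2.2, hv.2.2.1⟩
  have hnb : ∀ b ∈ Dx D x, {y | y ∈ D ∧ Commute b y ∧ ¬ Commute x y}.ncard = n₁ := by
    intro b hb
    have hxb : x ∈ Dx D b := ⟨hx, Ne.symm hb.2.1, hb.2.2.symm⟩
    have := split_card (D := D) hxb
    rw [c1 b hb.1, c2 b hb.1 x hxb] at this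
    omega
  -- first count
  have hc1 : l * mu ≤ k * n₁ := by
    have := double_count {y | y ∈ D ∧ ¬ Commute x y} (Dx D x) (fun y b => Commute b y) mu n₁ ?_ ?_
    · rw [← hl, ← hk_def] at this; exact this
    · intro y hy
      have e : {b | b ∈ Dx D x ∧ Commute b y} = Dx D x ∩ Dx D y := by
        ext b
        constructor
        · rintro ⟨hb, hc⟩
          refine ⟨hb, hb.1, ?_, hc.symm⟩
          rintro rfl
          exact hy.2 hb.2.2
        · rintro ⟨hb, hb'⟩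
          exact ⟨hb, hb'.2.2.symm⟩
      rw [e]
      exact c3 x hx y hy.1 hy.2
    · intro b hb
      have e : {y | y ∈ {y | y ∈ D ∧ ¬ Commute x y} ∧ Commute b y}
          = {y | y ∈ D ∧ Commute b y ∧ ¬ Commute x y} := by
        ext y
        constructor
        · rintro ⟨⟨h1, h2⟩, h3⟩
          exact ⟨h1, h3, h2⟩
        · rintro ⟨h1, h3, h2⟩
          exact ⟨⟨h1, h2⟩, h3⟩
      rw [e, hnb b hb]
  -- second count
  have hc2 : k * tau ≤ l * (tau + 1 + mu - k) := by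
    have := double_count (Dx D x) {y | y ∈ D ∧ ¬ Commute x y} (fun b y => Twin D b x y) tau
      (tau + 1 + mu - k) ?_ ?_
    · rw [← hl, ← hk_def] at this; exact this
    · intro b hb
      have hxb : x ∈ Dx D b := ⟨hx, Ne.symm hb.2.1, hb.2.2.symm⟩
      have e : {y | y ∈ {y | y ∈ D ∧ ¬ Commute x y} ∧ Twin D b x y} = {y | Twin D b x y} := by
        ext y
        constructor
        · rintro ⟨-, h⟩
          exact h
        · intro h
          exact ⟨⟨h.2.1.1, h.2.2.1⟩, h⟩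
      rw [e]
      exact c4 b hb.1 x hxb
    · intro y hy
      by_cases hne : {b | b ∈ Dx D x ∧ Twin D b x y}.Nonempty
      · obtain ⟨b₀, hb₀, htb₀⟩ := hne
        have hyx : y ≠ x := by rintro rfl; exact hy.2 (Commute.refl _)
        obtain ⟨w₀, hw₀, hw₀y⟩ := Set.not_subset.mp
          (Dx_not_subset hTT hprim hx hy.1 hyx ⟨a, haDx⟩)
        have hnc_of : ∀ v ∈ Dx D x, v ∉ Dx D y → ¬ Commute v y := by
          intro v hv hvy hc
          apply hvy
          refine ⟨hv.1, ?_, hc.symm⟩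
          rintro rfl
          exact hy.2 hv.2.2
        have hT0 : Twin D x w₀ b₀ := (twin_stepB hTT hb₀.1 htb₀ hw₀ (hnc_of w₀ hw₀ hw₀y)).symm
        have hsub : {b | b ∈ Dx D x ∧ Twin D b x y} ∪ ((Dx D x \ Dx D y) \ {w₀})
            ⊆ {b | Twin D x w₀ b} := by
          rintro v (⟨hv, htv⟩ | ⟨⟨hv, hvy⟩, hvw⟩)
          · exact (twin_stepB hTT hv.1 htv hw₀ (hnc_of w₀ hw₀ hw₀y)).symm
          · have h1 : Twin D x b₀ v := twin_stepB hTT hb₀.1 htb₀ hv (hnc_of v hv hvy)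
            exact hT0.trans h1 (fun e => hvw e.symm)
        have hdisj : Disjoint {b | b ∈ Dx D x ∧ Twin D b x y} ((Dx D x \ Dx D y) \ {w₀}) := by
          rw [Set.disjoint_left]
          rintro v ⟨hv, htv⟩ ⟨⟨-, hvy⟩, -⟩
          apply hvy
          have hyv : y ∈ Dx D v := htv.2.1
          exact ⟨hv.1, Ne.symm hyv.2.1, hyv.2.2.symm⟩
        have h1 := Set.ncard_le_ncard hsub (Set.toFinite _)
        rw [Set.ncard_union_eq hdisj (Set.toFinite _) (Set.toFinite _), c4 x hx w₀ hw₀] at h1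
        have h2 := Set.ncard_sdiff_singleton_add_one (a := w₀) (s := Dx D x \ Dx D y)
          ⟨hw₀, hw₀y⟩ (Set.toFinite _)
        have h3 : (Dx D x \ Dx D y).ncard + mu = k := by
          have h4 := Set.ncard_sdiff_add_ncard_of_subset
            (Set.inter_subset_left : Dx D x ∩ Dx D y ⊆ Dx D x) (Set.toFinite _)
          rw [Set.sdiff_self_inter, c3 x hx y hy.1 hy.2, c1 x hx] at h4
          exact h4
        omega
      · rw [Set.not_nonempty_iff_eq_empty.mp hne, Set.ncard_empty]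
        exact Nat.zero_le _
  -- arithmetic
  obtain ⟨j, hj⟩ : ∃ j, j = tau + 1 + mu - k := ⟨_, rfl⟩
  rw [← hj] at hc2
  have hkt : 0 < k * tau := Nat.mul_pos hk1 htau1
  have hj1 : 1 ≤ j := by
    by_contra hcon
    have hj0 : j = 0 := by omega
    rw [hj0, mul_zero] at hc2
    exact absurd hc2 (by omega)
  have hj' : tau + 1 + mu = j + k := by omega
  obtain ⟨phi, hphi⟩ := Nat.exists_eq_add_of_le htn
  have hmu' : mu = j + lam + phi := by omega
  have hjt : j ≤ tau := by omega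
  have h3 : k * (tau * mu) ≤ k * (n₁ * j) := by
    calc k * (tau * mu) = k * tau * mu := by ring
      _ ≤ l * j * mu := Nat.mul_le_mul_right mu hc2
      _ = l * mu * j := by ring
      _ ≤ k * n₁ * j := Nat.mul_le_mul_right j hc1
      _ = k * (n₁ * j) := by ring
  have h4 : tau * mu ≤ n₁ * j := Nat.le_of_mul_le_mul_left h3 hk1
  rw [hmu', hphi] at h4
  have h5 : phi * j ≤ phi * tau := Nat.mul_le_mul_left phi hjt
  have h6 : tau * lam ≤ 0 := by nlinarith [h4, h5]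
  have hlam0 : lam = 0 := by
    rcases Nat.mul_eq_zero.mp (Nat.le_zero.mp h6) with h | h
    · omega
    · exact h
  intro d hd e he f hf hef hc
  have hmem : f ∈ Dx D d ∩ Dx D e := ⟨hf, hf.1, Ne.symm hef, hc⟩
  have h0 := c2 d hd e he
  rw [hlam0] at h0
  rw [(Set.ncard_eq_zero (Set.toFinite _)).mp h0] at hmem
  exact hmem

end Cfsg.Agent.Lib.Helper55.FischerCount
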