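import Mathlib
import Cfsg.Agent.Lib.Helper55.Fischer

/-!
# Commuting sets of 3-transpositions of maximum size

Helper library (helper55).  A commuting subset `E` of maximum size of a class `D` of
3-transpositions is `D ∩ Q` for every 2-subgroup `Q` containing it; hence its normalizer
contains a Sylow 2-subgroup, and (given rank 3) is doubly transitive on `E`.
-/

set_option autoImplicit false

namespace Cfsg.Agent.Lib.Helper55.FischerMax

open Cfsg.Agent.Lib.Helper55.Fischer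

open scoped Pointwise

variable {G : Type*} [Group G]

/-- two 3-transpositions in a common 2-subgroup commute. -/
theorem commute_of_mem_pgroup {D : Set G} (hTT : TT D) {Q : Subgroup G} (hQ : IsPGroup 2 Q)
    {a b : G} (ha : a ∈ D) (hb : b ∈ D) (haQ : a ∈ Q) (hbQ : b ∈ Q) : Commute a b := by
  obtain ⟨k, hk⟩ := hQ ⟨a * b, Q.mul_mem haQ hbQ⟩
  have hk' : (a * b) ^ 2 ^ k = 1 := by
    have := congrArg Subtype.val hk
    simpa using this
  rcases hTT.set3.2 a ha b hb with h | h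
  · show a * b = b * a
    have h1 : (a * b)⁻¹ = a * b := inv_eq_of_mul_eq_one_left (by rw [← pow_two]; exact h)
    calc a * b = (a * b)⁻¹ := h1.symm
      _ = b⁻¹ * a⁻¹ := mul_inv_rev a b
      _ = b * a := by rw [hTT.inv_eq ha, hTT.inv_eq hb]
  · have h3 : orderOf (a * b) ∣ 3 := orderOf_dvd_of_pow_eq_one h
    have h2 : orderOf (a * b) ∣ 2 ^ k := orderOf_dvd_of_pow_eq_one hk'
    have hcop : Nat.Coprime 3 (2 ^ k) := Nat.Coprime.pow_right k (by norm_num)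
    have h1 : orderOf (a * b) = 1 := Nat.eq_one_of_dvd_coprimes hcop h3 h2
    have hab : a * b = 1 := orderOf_eq_one_iff.mp h1
    have hab' : a = b := by
      calc a = a * (b * b) := by rw [hTT.sq b hb, mul_one]
        _ = (a * b) * b := by group
        _ = b := by rw [hab, one_mul]
    rw [hab']

/-- a commuting subset of `D` of maximum size is the set of members of `D` in any
2-subgroup containing it. -/
theorem max_eq_inter [Finite G] {D E : Set G} (hTT : TT D) (hE : E ⊆ D)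
    (hmax : ∀ E' : Set G, E' ⊆ D → (∀ a ∈ E', ∀ b ∈ E', Commute a b) → E'.ncard ≤ E.ncard)
    {Q : Subgroup G} (hQ : IsPGroup 2 Q) (hEQ : ∀ e ∈ E, e ∈ Q) :
    E = {w | w ∈ D ∧ w ∈ Q} := by
  refine Set.eq_of_subset_of_ncard_le (t := {w | w ∈ D ∧ w ∈ Q})
    (fun w hw => ⟨hE hw, hEQ w hw⟩) ?_ (Set.toFinite _)
  exact hmax _ (fun w hw => hw.1)
    (fun a ha b hb => commute_of_mem_pgroup hTT hQ ha.1 hb.1 ha.2 hb.2)

/-- the subgroup generated by a set of commuting involutions is a 2-group. -/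
theorem isPGroup_closure {E : Set G} (hsq : ∀ e ∈ E, e * e = 1)
    (hc : ∀ a ∈ E, ∀ b ∈ E, Commute a b) : IsPGroup 2 (Subgroup.closure E) := by
  have h1 : Subgroup.closure E ≤ Subgroup.centralizer E := by
    rw [Subgroup.closure_le]
    intro a ha
    rw [SetLike.mem_coe, Subgroup.mem_centralizer_iff]
    intro b hb
    exact (hc b hb a ha).eq
  have h2 : ∀ g ∈ Subgroup.closure E, ∀ h ∈ Subgroup.closure E, Commute g h := by
    intro g hg h hh
    have hle : Subgroup.closure E ≤ Subgroup.centralizer {g} := by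
      rw [Subgroup.closure_le]
      intro a ha
      rw [SetLike.mem_coe, Subgroup.mem_centralizer_iff]
      intro z hz
      rw [Set.mem_singleton_iff] at hz
      subst hz
      have h' := h1 hg
      rw [Subgroup.mem_centralizer_iff] at h'
      exact (h' a ha).symm
    have h3 := hle hh
    rw [Subgroup.mem_centralizer_iff] at h3
    exact h3 g rfl
  have h3 : ∀ g ∈ Subgroup.closure E, g * g = 1 := by
    intro g hg
    induction hg using Subgroup.closure_induction with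
    | mem x hx => exact hsq x hx
    | one => simp
    | mul x y hx hy ihx ihy =>
      have hxy := h2 x hx y hy
      calc x * y * (x * y) = x * (y * x) * y := by group
        _ = x * (x * y) * y := by rw [hxy.eq]
        _ = (x * x) * (y * y) := by group
        _ = 1 := by rw [ihx, ihy, one_mul]
    | inv x hx ih =>
      have hinv : x⁻¹ = x := inv_eq_of_mul_eq_one_left ih
      rw [hinv, ih]
  intro g
  refine ⟨1, ?_⟩
  apply Subtype.ext
  have h := h3 g g.2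
  simp [pow_two, h]

/-- Sylow's theorem inside a subgroup `C`, in elementwise form. -/
theorem sylow_conj_in_subgroup [Finite G] (p : ℕ) [Fact p.Prime] (C : Subgroup G)
    {Q₁ Q₂ : Subgroup G} (h₁ : IsPGroup p Q₁) (h₂ : IsPGroup p Q₂) (hQ₁ : Q₁ ≤ C)
    (hQ₂ : Q₂ ≤ C) :
    ∃ T₁ T₂ : Subgroup G, IsPGroup p T₁ ∧ IsPGroup p T₂ ∧ Q₁ ≤ T₁ ∧ Q₂ ≤ T₂ ∧
      ∃ k ∈ C, ∀ w, w ∈ T₂ ↔ k⁻¹ * w * k ∈ T₁ := by
  obtain ⟨S₁, hS₁⟩ := (h₁.comap_subtype (K := C)).exists_le_sylow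
  obtain ⟨S₂, hS₂⟩ := (h₂.comap_subtype (K := C)).exists_le_sylow
  obtain ⟨k, hk⟩ := MulAction.exists_smul_eq (↥C) S₁ S₂
  have hmem : ∀ s : ↥C, s ∈ (S₂ : Subgroup ↥C) ↔ k⁻¹ * s * k ∈ (S₁ : Subgroup ↥C) := by
    intro s
    rw [← hk]
    show s ∈ MulAut.conj k • (S₁ : Subgroup ↥C) ↔ _
    rw [Subgroup.mem_pointwise_smul_iff_inv_smul_mem]
    simp [MulAut.smul_def]
  refine ⟨(S₁ : Subgroup ↥C).map C.subtype, (S₂ : Subgroup ↥C).map C.subtype,
    S₁.isPGroup'.map _, S₂.isPGroup'.map _, ?_, ?_, (k : G), k.2, ?_⟩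
  · intro w hw
    exact ⟨⟨w, hQ₁ hw⟩, hS₁ hw, rfl⟩
  · intro w hw
    exact ⟨⟨w, hQ₂ hw⟩, hS₂ hw, rfl⟩
  · intro w
    constructor
    · rintro ⟨s, hs, rfl⟩
      exact ⟨k⁻¹ * s * k, (hmem s).mp hs, rfl⟩
    · rintro ⟨s, hs, hsw⟩
      refine ⟨k * s * k⁻¹, ?_, ?_⟩
      · refine (hmem _).mpr ?_
        have e : k⁻¹ * (k * s * k⁻¹) * k = s := by group
        rw [e]; exact hs
      · have e : (C.subtype (k * s * k⁻¹) : G) = (k : G) * (C.subtype s) * (k : G)⁻¹ := rfl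
        rw [e, hsw]; group

theorem sylow_normalizes [Finite G] {D E : Set G} (hTT : TT D) (hE : E ⊆ D)
    (hc : ∀ a ∈ E, ∀ b ∈ E, Commute a b)
    (hmax : ∀ E' : Set G, E' ⊆ D → (∀ a ∈ E', ∀ b ∈ E', Commute a b) →
      E'.ncard ≤ E.ncard) :
    ∃ P : Sylow 2 G, (P : Subgroup G) ≤ Subgroup.normalizer E := by
  have hE2 : IsPGroup 2 (Subgroup.closure E) :=
    isPGroup_closure (fun e he => hTT.sq e (hE he)) hc
  obtain ⟨P, hP⟩ := hE2.exists_le_sylow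
  refine ⟨P, ?_⟩
  have heq := max_eq_inter hTT hE hmax P.isPGroup'
    (fun e he => hP (Subgroup.subset_closure he))
  intro g hg
  rw [Subgroup.mem_set_normalizer_iff]
  intro n
  rw [heq]
  show (n ∈ D ∧ n ∈ (P : Subgroup G)) ↔ (g * n * g⁻¹ ∈ D ∧ g * n * g⁻¹ ∈ (P : Subgroup G))
  rw [hTT.conj_iff n g]
  refine and_congr Iff.rfl ?_
  constructor
  · intro hn
    exact Subgroup.mul_mem _ (Subgroup.mul_mem _ hg hn) (Subgroup.inv_mem _ hg)
  · intro hn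
    have h : g⁻¹ * (g * n * g⁻¹) * g ∈ (P : Subgroup G) :=
      Subgroup.mul_mem _ (Subgroup.mul_mem _ (Subgroup.inv_mem _ hg) hn) hg
    have e : g⁻¹ * (g * n * g⁻¹) * g = n := by group
    rwa [e] at h

theorem double_trans [Finite G] {D E : Set G} (hTT : TT D) (hprim : Prim D)
    (hnc : ∀ a ∈ D, ∃ c ∈ D, ¬ Commute a c) (hE : E ⊆ D)
    (hc : ∀ a ∈ E, ∀ b ∈ E, Commute a b)
    (hmax : ∀ E' : Set G, E' ⊆ D → (∀ a ∈ E', ∀ b ∈ E', Commute a b) →
      E'.ncard ≤ E.ncard)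
    {a b c d : G} (ha : a ∈ E) (hb : b ∈ E) (hc' : c ∈ E) (hd : d ∈ E) (hab : a ≠ b)
    (hcd : c ≠ d) :
    ∃ g ∈ Subgroup.normalizer E, g * a * g⁻¹ = c ∧ g * b * g⁻¹ = d := by
  obtain ⟨g₁, hg₁⟩ := hTT.trans a (hE ha) c (hE hc')
  have hb'D : g₁ * b * g₁⁻¹ ∈ D := hTT.conj b (hE hb) g₁
  have hb'c : g₁ * b * g₁⁻¹ ≠ c := by
    rw [← hg₁]
    intro h
    apply hab
    have h' : b = a := by simpa using h
    exact h'.symm
  have hcb' : Commute c (g₁ * b * g₁⁻¹) := by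
    rw [← hg₁]
    have r : R a b (g₁ * a * g₁⁻¹) (g₁ * b * g₁⁻¹) := ⟨g₁, rfl, rfl⟩
    exact r.commute_iff.mp (hc a ha b hb)
  obtain ⟨g₂, hg₂c, hg₂⟩ := trans_comm hTT hprim (hE hc') hb'D (hE hd) hb'c (Ne.symm hcd)
    hcb' (hc c hc' d hd) (hnc c (hE hc'))
  obtain ⟨h₀, hh₀⟩ : ∃ h₀, h₀ = g₂ * g₁ := ⟨_, rfl⟩
  have h₀a : h₀ * a * h₀⁻¹ = c := by
    calc h₀ * a * h₀⁻¹ = g₂ * (g₁ * a * g₁⁻¹) * g₂⁻¹ := by rw [hh₀]; group
      _ = c := by rw [hg₁, hg₂c.eq, mul_inv_cancel_right]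
  have h₀b : h₀ * b * h₀⁻¹ = d := by
    calc h₀ * b * h₀⁻¹ = g₂ * (g₁ * b * g₁⁻¹) * g₂⁻¹ := by rw [hh₀]; group
      _ = d := hg₂
  obtain ⟨E₁, hE₁def⟩ : ∃ E₁ : Set G, E₁ = {w | h₀⁻¹ * w * h₀ ∈ E} := ⟨_, rfl⟩
  have hmemE₁ : ∀ w, w ∈ E₁ ↔ h₀⁻¹ * w * h₀ ∈ E := by
    intro w; rw [hE₁def]; rfl
  have hE₁D : E₁ ⊆ D := fun w hw => (hTT.conj_iff' w h₀).mp (hE ((hmemE₁ w).mp hw))
  have hE₁c : ∀ u ∈ E₁, ∀ v ∈ E₁, Commute u v := by
    intro u hu v hv
    have r : R u v (h₀⁻¹ * u * h₀) (h₀⁻¹ * v * h₀) :=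
      ⟨h₀⁻¹, by rw [inv_inv], by rw [inv_inv]⟩
    exact r.commute_iff.mpr (hc _ ((hmemE₁ u).mp hu) _ ((hmemE₁ v).mp hv))
  have hE₁card : E₁.ncard = E.ncard := by
    rw [hE₁def]; exact ncard_conj_preimage E h₀
  have hE₁max : ∀ E' : Set G, E' ⊆ D → (∀ a ∈ E', ∀ b ∈ E', Commute a b) →
      E'.ncard ≤ E₁.ncard := by
    intro E' h1 h2
    rw [hE₁card]; exact hmax E' h1 h2
  have hcE₁ : c ∈ E₁ := by
    rw [hmemE₁, ← h₀a]
    have e : h₀⁻¹ * (h₀ * a * h₀⁻¹) * h₀ = a := by group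
    rw [e]; exact ha
  have hdE₁ : d ∈ E₁ := by
    rw [hmemE₁, ← h₀b]
    have e : h₀⁻¹ * (h₀ * b * h₀⁻¹) * h₀ = b := by group
    rw [e]; exact hb
  have hEC : Subgroup.closure E ≤ Subgroup.centralizer ({c, d} : Set G) := by
    rw [Subgroup.closure_le]
    intro e he
    rw [SetLike.mem_coe, Subgroup.mem_centralizer_iff]
    intro z hz
    rcases hz with rfl | rfl
    · exact (hc z hc' e he).eq
    · exact (hc z hd e he).eq
  have hE₁C : Subgroup.closure E₁ ≤ Subgroup.centralizer ({c, d} : Set G) := by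
    rw [Subgroup.closure_le]
    intro e he
    rw [SetLike.mem_coe, Subgroup.mem_centralizer_iff]
    intro z hz
    rcases hz with rfl | rfl
    · exact (hE₁c z hcE₁ e he).eq
    · exact (hE₁c z hdE₁ e he).eq
  obtain ⟨T₁, T₂, hT₁, hT₂, hET₁, hET₂, k, hkC, hk⟩ :=
    sylow_conj_in_subgroup 2 (Subgroup.centralizer ({c, d} : Set G))
      (isPGroup_closure (fun e he => hTT.sq e (hE he)) hc)
      (isPGroup_closure (fun e he => hTT.sq e (hE₁D he)) hE₁c) hEC hE₁C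
  have heq₁ := max_eq_inter hTT hE hmax hT₁ (fun e he => hET₁ (Subgroup.subset_closure he))
  have heq₂ := max_eq_inter hTT hE₁D hE₁max hT₂
    (fun e he => hET₂ (Subgroup.subset_closure he))
  have hkE : ∀ w, w ∈ E₁ ↔ k⁻¹ * w * k ∈ E := by
    intro w
    rw [heq₂, heq₁]
    show (w ∈ D ∧ w ∈ T₂) ↔ (k⁻¹ * w * k ∈ D ∧ k⁻¹ * w * k ∈ T₁)
    rw [hTT.conj_iff' w k, hk w]
  rw [Subgroup.mem_centralizer_iff] at hkC
  have hkc : c * k = k * c := hkC c (by simp)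
  have hkd : d * k = k * d := hkC d (by simp)
  refine ⟨k⁻¹ * h₀, ?_, ?_, ?_⟩
  · rw [Subgroup.mem_set_normalizer_iff]
    intro n
    have e1 : k⁻¹ * h₀ * n * (k⁻¹ * h₀)⁻¹ = k⁻¹ * (h₀ * n * h₀⁻¹) * k := by group
    rw [e1, ← hkE, hmemE₁]
    have e2 : h₀⁻¹ * (h₀ * n * h₀⁻¹) * h₀ = n := by group
    rw [e2]
  · calc k⁻¹ * h₀ * a * (k⁻¹ * h₀)⁻¹ = k⁻¹ * (h₀ * a * h₀⁻¹) * k := by group
      _ = c := by rw [h₀a, mul_assoc, hkc, inv_mul_cancel_left]
  · calc k⁻¹ * h₀ * b * (k⁻¹ * h₀)⁻¹ = k⁻¹ * (h₀ * b * h₀⁻¹) * k := by group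
      _ = d := by rw [h₀b, mul_assoc, hkd, inv_mul_cancel_left]

end Cfsg.Agent.Lib.Helper55.FischerMax
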