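import Mathlib
import Cfsg.Agent.Lib.Helper55.Fischer
import Cfsg.Agent.Lib.Helper55.FischerDx
import Cfsg.Agent.Lib.Helper55.FischerTwin
import Cfsg.Agent.Lib.Helper55.FischerCount
import Cfsg.Agent.Lib.Helper24.TranspBlocks3

/-!
# The commuting graph when members of `D_x` pairwise do not commute

Helper library (helper55).  For a primitive class `D` of 3-transpositions such that no two
members of any `D_d` commute, two non-commuting members of `D` have exactly one common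
neighbour, and every `D_d` is a line of three members.
-/

set_option autoImplicit false

namespace Cfsg.Agent.Lib.Helper55.FischerMoore

open Cfsg.Agent.Lib.Helper55.Fischer Cfsg.Agent.Lib.Helper55.FischerDx
  Cfsg.Agent.Lib.Helper55.FischerTwin Cfsg.Agent.Lib.Helper55.FischerCount

variable {G : Type*} [Group G]

set_option warn.classDefReducibility false in
/-- the conjugation action of a subgroup on a stable set. -/
def conjOn (P : Subgroup G) (X : Set G) (hX : ∀ p ∈ P, ∀ x ∈ X, p * x * p⁻¹ ∈ X) :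
    MulAction P X where
  smul p x := ⟨(p : G) * (x : G) * (p : G)⁻¹, hX p p.2 x x.2⟩
  one_smul x := Subtype.ext (by
    show ((1 : P) : G) * (x : G) * ((1 : P) : G)⁻¹ = x
    simp)
  mul_smul p q x := Subtype.ext (by
    show ((p * q : P) : G) * (x : G) * ((p * q : P) : G)⁻¹
      = (p : G) * ((q : G) * (x : G) * (q : G)⁻¹) * (p : G)⁻¹
    simp [mul_assoc])

/-- orbit counting for a 3-group acting by conjugation on a stable set. -/
theorem card_modEq_fixed [Finite G] (P : Subgroup G) (hP : IsPGroup 3 P) (X : Set G)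
    (hX : ∀ p ∈ P, ∀ x ∈ X, p * x * p⁻¹ ∈ X) :
    X.ncard ≡ {x | x ∈ X ∧ ∀ p ∈ P, p * x * p⁻¹ = x}.ncard [MOD 3] := by
  let _ := conjOn P X hX
  have : Fact (Nat.Prime 3) := ⟨by norm_num⟩
  have h := hP.card_modEq_card_fixedPoints (α := X)
  have e2 : {x | x ∈ X ∧ ∀ p ∈ P, p * x * p⁻¹ = x}
      = Subtype.val '' (MulAction.fixedPoints P X) := by
    ext x
    constructor
    · rintro ⟨hx, hfix⟩
      refine ⟨⟨x, hx⟩, ?_, rfl⟩
      intro p
      exact Subtype.ext (hfix p p.2)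
    · rintro ⟨⟨x', hx'⟩, hfix, rfl⟩
      refine ⟨hx', ?_⟩
      intro p hp
      have := hfix ⟨p, hp⟩
      exact congrArg Subtype.val this
  rw [e2, Set.ncard_image_of_injective _ Subtype.val_injective]
  exact h

theorem isPGroup_zpowers {c : G} (hc : c ^ 3 = 1) : IsPGroup 3 (Subgroup.zpowers c) := by
  rintro ⟨g, hg⟩
  obtain ⟨n, rfl⟩ := Subgroup.mem_zpowers_iff.mp hg
  refine ⟨1, Subtype.ext ?_⟩
  show (c ^ n) ^ 3 ^ 1 = 1
  rw [pow_one, ← zpow_natCast, ← zpow_mul, mul_comm, zpow_mul, zpow_natCast, hc, one_zpow]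

theorem zpowers_fix_iff {c y : G} :
    (∀ p ∈ Subgroup.zpowers c, p * y * p⁻¹ = y) ↔ Commute c y := by
  constructor
  · intro h
    exact commute_of_conj_fix (h c (Subgroup.mem_zpowers c))
  · intro h p hp
    obtain ⟨n, rfl⟩ := Subgroup.mem_zpowers_iff.mp hp
    have : Commute (c ^ n) y := h.zpow_left n
    rw [this.eq, mul_assoc, mul_inv_cancel, mul_one]

theorem conj_fix_of_commute {p x : G} (h : Commute p x) : p * x * p⁻¹ = x := by
  rw [h.eq, mul_assoc, mul_inv_cancel, mul_one]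

theorem commute_of_mem_zpowers {c p x : G} (hp : p ∈ Subgroup.zpowers c) (h : Commute c x) :
    Commute p x := by
  obtain ⟨n, rfl⟩ := Subgroup.mem_zpowers_iff.mp hp
  exact h.zpow_left n

theorem commute_conj_of_commute {p x : G} (h : Commute p x) (y : G) :
    Commute x (p * y * p⁻¹) ↔ Commute x y := by
  have r : R x y x (p * y * p⁻¹) := ⟨p, conj_fix_of_commute h, rfl⟩
  exact r.commute_iff.symm

theorem commute_conj_of_commute' {p x : G} (h : Commute p x) (y : G) :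
    Commute x (p⁻¹ * y * p) ↔ Commute x y := by
  have := commute_conj_of_commute (h.inv_left) y
  rwa [inv_inv] at this

theorem commute_conj_conj' (g : G) {p q : G} (h : Commute p q) :
    Commute (g⁻¹ * p * g) (g⁻¹ * q * g) := by
  show g⁻¹ * p * g * (g⁻¹ * q * g) = g⁻¹ * q * g * (g⁻¹ * p * g)
  calc g⁻¹ * p * g * (g⁻¹ * q * g) = g⁻¹ * (p * q) * g := by group
    _ = g⁻¹ * (q * p) * g := by rw [h.eq]
    _ = g⁻¹ * q * g * (g⁻¹ * p * g) := by group

theorem commute_conj_invol {c p q : G} (hc : c * c = 1) (h : Commute p (c * q * c)) :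
    Commute (c * p * c) q := by
  show c * p * c * q = q * (c * p * c)
  calc c * p * c * q = c * p * c * q * (c * c) := by rw [hc, mul_one]
    _ = c * (p * (c * q * c)) * c := by group
    _ = c * ((c * q * c) * p) * c := by rw [h.eq]
    _ = (c * c) * q * (c * p * c) := by group
    _ = q * (c * p * c) := by rw [hc, one_mul]

/-- members of `D` are not the identity. -/
theorem ne_one_of_mem {D : Set G} (hnc : ∀ a ∈ D, ∃ c ∈ D, ¬ Commute a c) {d : G}
    (hd : d ∈ D) : d ≠ 1 := by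
  rintro rfl
  obtain ⟨c, -, hc⟩ := hnc 1 hd
  exact hc (Commute.one_left c)

/-- the subgroup generated by the products of pairs from `D_x`. -/
def Rx (D : Set G) (x : G) : Subgroup G :=
  Subgroup.closure {z : G | ∃ p ∈ Dx D x, ∃ q ∈ Dx D x, z = p * q}

theorem Rx_commute {D : Set G} {x r : G} (hr : r ∈ Rx D x) : Commute r x := by
  have hle : Rx D x ≤ Subgroup.centralizer {x} := by
    unfold Rx
    rw [Subgroup.closure_le]
    rintro z ⟨p, hp, q, hq, rfl⟩
    rw [SetLike.mem_coe, Subgroup.mem_centralizer_iff]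
    intro v hv
    rw [Set.mem_singleton_iff] at hv
    subst hv
    exact (hp.2.2.mul_right hq.2.2).eq
  have := hle hr
  rw [Subgroup.mem_centralizer_iff] at this
  exact (this x rfl).symm

theorem Rx_isPGroup [Finite G] {D : Set G} (hTT : TT D)
    (hpw : ∀ d ∈ D, ∀ e ∈ Dx D d, ∀ f ∈ Dx D d, e ≠ f → ¬ Commute e f)
    (hnc : ∀ a ∈ D, ∃ c ∈ D, ¬ Commute a c) {x : G} (hx : x ∈ D) : IsPGroup 3 (Rx D x) := by
  apply Cfsg.Agent.Lib.Helper24.isPGroup_three_of_width_one (Dx D x)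
  · intro p hp
    exact hTT.sq p hp.1
  · intro p hp
    exact ne_one_of_mem hnc hp.1
  · intro p hp q hq
    exact Dx_map hTT (conj_fix_of_commute hp.2.2.symm) hq
  · intro p hp q hq hpq
    exact cube_of_not_commute hTT hp.1 hq.1 (hpw x hx p hp q hq hpq)

/-- the product of two different members of `D_x` fixes no member of `D_x`. -/
theorem no_fix {D : Set G} (hTT : TT D)
    (hpw : ∀ d ∈ D, ∀ e ∈ Dx D d, ∀ f ∈ Dx D d, e ≠ f → ¬ Commute e f) {x a b y : G}
    (hx : x ∈ D) (ha : a ∈ Dx D x) (hb : b ∈ Dx D x) (hab : a ≠ b) (hy : y ∈ Dx D x) :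
    ¬ Commute (a * b) y := by
  intro hc
  have hnab := hpw x hx a ha b hb hab
  obtain ⟨h1, h2⟩ := commute_of_commute_mul hTT hy.1 ha.1 hb.1 hnab hc.symm
  by_cases hya : y = a
  · subst hya
    exact hnab h2
  · exact hpw x hx y hy a ha hya h1

theorem three_dvd_Dx [Finite G] {D : Set G} (hTT : TT D)
    (hpw : ∀ d ∈ D, ∀ e ∈ Dx D d, ∀ f ∈ Dx D d, e ≠ f → ¬ Commute e f)
    (h2 : ∀ d ∈ D, ∃ e ∈ Dx D d, ∃ f ∈ Dx D d, e ≠ f) {x : G} (hx : x ∈ D) :
    (Dx D x).ncard % 3 = 0 := by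
  obtain ⟨a, ha, b, hb, hab⟩ := h2 x hx
  have hP := isPGroup_zpowers (cube_of_not_commute hTT ha.1 hb.1 (hpw x hx a ha b hb hab))
  have hcx : Commute (a * b) x := (ha.2.2.symm.mul_left hb.2.2.symm)
  have h := card_modEq_fixed (Subgroup.zpowers (a * b)) hP (Dx D x) (fun p hp y hy =>
    Dx_map hTT (conj_fix_of_commute (commute_of_mem_zpowers hp hcx)) hy)
  have e : {y | y ∈ Dx D x ∧ ∀ p ∈ Subgroup.zpowers (a * b), p * y * p⁻¹ = y} = ∅ := by
    rw [Set.eq_empty_iff_forall_notMem]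
    rintro y ⟨hy, hfix⟩
    exact no_fix hTT hpw hx ha hb hab hy (zpowers_fix_iff.mp hfix)
  rw [e, Set.ncard_empty] at h
  exact h

/-- Two non-commuting members have exactly one common neighbour. -/
theorem mu_one [Finite G] {D : Set G} (hTT : TT D) (hprim : Prim D)
    (hpw : ∀ d ∈ D, ∀ e ∈ Dx D d, ∀ f ∈ Dx D d, e ≠ f → ¬ Commute e f)
    (h2 : ∀ d ∈ D, ∃ e ∈ Dx D d, ∃ f ∈ Dx D d, e ≠ f)
    (hnc : ∀ a ∈ D, ∃ c ∈ D, ¬ Commute a c) {x y₀ : G} (hx : x ∈ D) (hy₀ : y₀ ∈ D)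
    (hxy₀ : ¬ Commute x y₀) : (Dx D x ∩ Dx D y₀).ncard = 1 := by
  have hk : ∀ d ∈ D, ∃ e ∈ D, e ≠ d ∧ Commute d e := by
    intro d hd
    obtain ⟨e, he, -⟩ := h2 d hd
    exact ⟨e, he.1, he.2.1, he.2.2⟩
  obtain ⟨a, ha, b, hb, hab⟩ := h2 x hx
  have hnab := hpw x hx a ha b hb hab
  obtain ⟨mu, hmu⟩ : ∃ mu, mu = (Dx D x ∩ Dx D y₀).ncard := ⟨_, rfl⟩
  have c3 : ∀ d ∈ D, ∀ e ∈ D, ¬ Commute d e → (Dx D d ∩ Dx D e).ncard = mu := by
    intro d hd e he hde
    rw [hmu]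
    exact ncard_inter_of_R hTT (R_noncomm hTT hprim hk hd hx he hy₀ hde hxy₀)
  rw [← hmu]
  have hk3 := three_dvd_Dx hTT hpw h2 hx
  have hl3 : {y | y ∈ D ∧ ¬ Commute x y}.ncard % 3 = 0 := by
    have hP := Rx_isPGroup hTT hpw hnc hx
    have h := card_modEq_fixed (Rx D x) hP {y | y ∈ D ∧ ¬ Commute x y} (fun p hp y hy =>
      ⟨hTT.conj y hy.1 p, fun hc => hy.2 ((commute_conj_of_commute (Rx_commute hp) y).mp hc)⟩)
    have e : {y | y ∈ {y | y ∈ D ∧ ¬ Commute x y} ∧ ∀ p ∈ Rx D x, p * y * p⁻¹ = y} = ∅ := by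
      rw [Set.eq_empty_iff_forall_notMem]
      rintro y ⟨hy, hfix⟩
      have hyx : y ≠ x := by rintro rfl; exact hy.2 (Commute.refl _)
      apply Dx_not_subset hTT hprim hx hy.1 hyx ⟨a, ha⟩
      intro c hc
      have hcy : c ≠ y := by rintro rfl; exact hy.2 hc.2.2
      refine ⟨hc.1, hcy, ?_⟩
      obtain ⟨e, he, hce⟩ : ∃ e ∈ Dx D x, c ≠ e := by
        by_cases hca : c = a
        · exact ⟨b, hb, by rw [hca]; exact hab⟩
        · exact ⟨a, ha, hca⟩
      have hmem : c * e ∈ Rx D x := Subgroup.subset_closure ⟨c, hc, e, he, rfl⟩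
      have hcomm : Commute (c * e) y := commute_of_conj_fix (hfix _ hmem)
      exact (commute_of_commute_mul hTT hy.1 hc.1 he.1 (hpw x hx c hc e he hce) hcomm.symm).1
    rw [e, Set.ncard_empty] at h
    exact h
  have hD3 : D.ncard % 3 = mu % 3 := by
    have hP := isPGroup_zpowers (cube_of_not_commute hTT ha.1 hb.1 hnab)
    have h := card_modEq_fixed (Subgroup.zpowers (a * b)) hP D (fun p _ y hy => hTT.conj y hy p)
    have e : {y | y ∈ D ∧ ∀ p ∈ Subgroup.zpowers (a * b), p * y * p⁻¹ = y}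
        = Dx D a ∩ Dx D b := by
      ext y
      constructor
      · rintro ⟨hy, hfix⟩
        obtain ⟨h1, h2'⟩ := commute_of_commute_mul hTT hy ha.1 hb.1 hnab
          (zpowers_fix_iff.mp hfix).symm
        refine ⟨⟨hy, ?_, h1.symm⟩, ⟨hy, ?_, h2'.symm⟩⟩
        · rintro rfl; exact hnab h2'
        · rintro rfl; exact hnab h1.symm
      · rintro ⟨hya, hyb⟩
        exact ⟨hya.1, zpowers_fix_iff.mpr (hya.2.2.mul_left hyb.2.2)⟩
    rw [e, c3 a ha.1 b hb.1 hnab] at h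
    exact h
  have hDcard : D.ncard = (Dx D x).ncard + {y | y ∈ D ∧ ¬ Commute x y}.ncard + 1 := by
    have hdisj : Disjoint (Dx D x) {y | y ∈ D ∧ ¬ Commute x y} := by
      rw [Set.disjoint_left]
      rintro y hy ⟨-, hy'⟩
      exact hy' hy.2.2
    have hU : D \ {x} = Dx D x ∪ {y | y ∈ D ∧ ¬ Commute x y} := by
      ext y
      constructor
      · rintro ⟨hy, hyx⟩
        by_cases hc : Commute x y
        · left; exact ⟨hy, hyx, hc⟩
        · right; exact ⟨hy, hc⟩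
      · rintro (hy | hy)
        · exact ⟨hy.1, hy.2.1⟩
        · refine ⟨hy.1, ?_⟩
          rintro rfl
          exact hy.2 (Commute.refl _)
    have h1 := Set.ncard_sdiff_singleton_add_one hx (Set.toFinite D)
    have h2' := Set.ncard_union_eq hdisj (Set.toFinite _) (Set.toFinite _)
    rw [← hU] at h2'
    omega
  have hmu3 : mu % 3 = 1 := by omega
  by_contra hne
  have hmu2 : 1 < (Dx D x ∩ Dx D y₀).ncard := by rw [← hmu]; omega
  obtain ⟨a', a'', ha', ha'', hne'⟩ := (Set.one_lt_ncard_iff (Set.toFinite _)).mp hmu2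
  have hna' := hpw x hx a' ha'.1 a'' ha''.1 hne'
  have hP := isPGroup_zpowers (cube_of_not_commute hTT ha'.1.1 ha''.1.1 hna')
  have hcx : Commute (a' * a'') x := ha'.1.2.2.symm.mul_left ha''.1.2.2.symm
  have hcy : Commute (a' * a'') y₀ := ha'.2.2.2.symm.mul_left ha''.2.2.2.symm
  have h := card_modEq_fixed (Subgroup.zpowers (a' * a'')) hP (Dx D x ∩ Dx D y₀)
    (fun p hp y hy =>
      ⟨Dx_map hTT (conj_fix_of_commute (commute_of_mem_zpowers hp hcx)) hy.1,
       Dx_map hTT (conj_fix_of_commute (commute_of_mem_zpowers hp hcy)) hy.2⟩)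
  have e : {y | y ∈ Dx D x ∩ Dx D y₀ ∧ ∀ p ∈ Subgroup.zpowers (a' * a''), p * y * p⁻¹ = y}
      = ∅ := by
    rw [Set.eq_empty_iff_forall_notMem]
    rintro y ⟨hy, hfix⟩
    exact no_fix hTT hpw hx ha'.1 ha''.1 hne' hy.1 (zpowers_fix_iff.mp hfix)
  rw [e, Set.ncard_empty, ← hmu] at h
  have h0 : mu % 3 = 0 := h
  omega

theorem exists_central_order_three [Finite G] (Rg : Subgroup G) (hR : IsPGroup 3 Rg)
    (hne : ∃ r ∈ Rg, r ≠ 1) :
    ∃ ζ ∈ Rg, ζ ≠ 1 ∧ ζ ^ 3 = 1 ∧ ∀ r ∈ Rg, Commute ζ r := by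
  have : Fact (Nat.Prime 3) := ⟨by norm_num⟩
  obtain ⟨r, hr, hr1⟩ := hne
  have : Nontrivial Rg := ⟨⟨⟨r, hr⟩, 1, fun h => hr1 (congrArg Subtype.val h)⟩⟩
  have : Nontrivial (Subgroup.center Rg) := hR.center_nontrivial
  have hZ : IsPGroup 3 (Subgroup.center Rg) := hR.to_subgroup _
  obtain ⟨n, hn⟩ := IsPGroup.iff_card.mp hZ
  have h3 : 3 ∣ Nat.card (Subgroup.center Rg) := by
    rw [hn]
    cases n with
    | zero =>
      exfalso
      rw [pow_zero] at hn
      have := Finite.one_lt_card (α := Subgroup.center Rg)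
      omega
    | succ n => exact dvd_pow_self 3 (Nat.succ_ne_zero n)
  obtain ⟨z, hz⟩ := exists_prime_orderOf_dvd_card' 3 h3
  refine ⟨((z : Rg) : G), (z : Rg).2, ?_, ?_, ?_⟩
  · intro h
    have hz1 : z = 1 := Subtype.ext (Subtype.ext h)
    rw [hz1, orderOf_one] at hz
    norm_num at hz
  · have hpow := pow_orderOf_eq_one z
    rw [hz] at hpow
    have h' := congrArg (fun t : Subgroup.center Rg => ((t : Rg) : G)) hpow
    simpa using h'
  · intro r hr
    have hc := Subgroup.mem_center_iff.mp z.2 ⟨r, hr⟩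
    have h' := congrArg Subtype.val hc
    exact h'.symm

theorem inv_rel {ζ c : G} (h3 : ζ ^ 3 = 1) (hinv : c * ζ * c⁻¹ = ζ⁻¹) :
    c * ζ = ζ⁻¹ * c ∧ c * ζ⁻¹ = ζ * c ∧ ζ * c * ζ⁻¹ = c * ζ ∧ ζ⁻¹ * c * ζ = ζ * c := by
  have h1 : c * ζ = ζ⁻¹ * c := by
    calc c * ζ = c * ζ * c⁻¹ * c := by group
      _ = ζ⁻¹ * c := by rw [hinv]
  have h2 : c * ζ⁻¹ = ζ * c := by
    calc c * ζ⁻¹ = (c * ζ * c⁻¹)⁻¹ * c := by group
      _ = ζ * c := by rw [hinv, inv_inv]
  have hz : ζ * ζ * ζ = 1 := by rw [← h3, pow_succ, pow_two]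
  have hz2 : ζ * ζ = ζ⁻¹ := eq_inv_of_mul_eq_one_left hz
  have hz2' : ζ⁻¹ * ζ⁻¹ = ζ := by
    calc ζ⁻¹ * ζ⁻¹ = (ζ * ζ)⁻¹ := by group
      _ = ζ := by rw [hz2, inv_inv]
  refine ⟨h1, h2, ?_, ?_⟩
  · calc ζ * c * ζ⁻¹ = ζ * (c * ζ⁻¹) := by group
      _ = ζ * (ζ * c) := by rw [h2]
      _ = (ζ * ζ) * c := by group
      _ = ζ⁻¹ * c := by rw [hz2]
      _ = c * ζ := h1.symm
  · calc ζ⁻¹ * c * ζ = ζ⁻¹ * (c * ζ) := by group
      _ = ζ⁻¹ * (ζ⁻¹ * c) := by rw [h1]
      _ = (ζ⁻¹ * ζ⁻¹) * c := by group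
      _ = ζ * c := by rw [hz2']

/-- Every `D_x` is contained in a line of three members. -/
theorem Dx_line [Finite G] {D : Set G} (hTT : TT D) (hprim : Prim D)
    (hpw : ∀ d ∈ D, ∀ e ∈ Dx D d, ∀ f ∈ Dx D d, e ≠ f → ¬ Commute e f)
    (h2 : ∀ d ∈ D, ∃ e ∈ Dx D d, ∃ f ∈ Dx D d, e ≠ f)
    (hnc : ∀ a ∈ D, ∃ c ∈ D, ¬ Commute a c)
    (hZ : ∀ z : G, (∀ d ∈ D, Commute z d) → z = 1)
    {x : G} (hx : x ∈ D) : ∃ a b : G, ∀ c ∈ Dx D x, c = a ∨ c = b ∨ c = a * b * a := by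
  have huniq : ∀ d ∈ D, ∀ e ∈ D, ¬ Commute d e → ∀ c ∈ Dx D d ∩ Dx D e,
      ∀ c' ∈ Dx D d ∩ Dx D e, c = c' := by
    intro d hd e he hde c hc c' hc'
    obtain ⟨v, hv⟩ := Set.ncard_eq_one.mp (mu_one hTT hprim hpw h2 hnc hd he hde)
    rw [hv] at hc hc'
    exact (Set.mem_singleton_iff.mp hc).trans (Set.mem_singleton_iff.mp hc').symm
  have hexist : ∀ d ∈ D, ∀ e ∈ D, ¬ Commute d e → ∃ c, c ∈ Dx D d ∩ Dx D e := by
    intro d hd e he hde
    obtain ⟨v, hv⟩ := Set.ncard_eq_one.mp (mu_one hTT hprim hpw h2 hnc hd he hde)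
    exact ⟨v, by rw [hv]; exact Set.mem_singleton v⟩
  obtain ⟨a, ha, b, hb, hab⟩ := h2 x hx
  have haD := ha.1
  have ha2 := hTT.sq a haD
  have hainv := hTT.inv_eq haD
  have hx2 := hTT.sq x hx
  have hax : Commute a x := ha.2.2.symm
  have hxa : x ∈ Dx D a := ⟨hx, Ne.symm ha.2.1, ha.2.2.symm⟩
  have hR := Rx_isPGroup hTT hpw hnc hx
  have habR : a * b ∈ Rx D x := Subgroup.subset_closure ⟨a, ha, b, hb, rfl⟩
  have hab1 : a * b ≠ 1 := by
    intro h
    exact hab ((hTT.inv_eq haD).symm.trans (inv_eq_of_mul_eq_one_right h))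
  obtain ⟨ζ, hζR, hζ1, hζ3, hζc⟩ := exists_central_order_three (Rx D x) hR ⟨a * b, habR, hab1⟩
  have hnorm : ∀ c ∈ Dx D x, ∀ r ∈ Rx D x, c * r * c⁻¹ ∈ Rx D x := by
    intro c hc r hr
    have hle : Rx D x ≤ (Rx D x).comap (MulAut.conj c).toMonoidHom := by
      unfold Rx
      rw [Subgroup.closure_le]
      rintro z ⟨p, hp, q, hq, rfl⟩
      rw [SetLike.mem_coe, Subgroup.mem_comap]
      show c * (p * q) * c⁻¹ ∈ _
      have e : c * (p * q) * c⁻¹ = (c * p * c⁻¹) * (c * q * c⁻¹) := by group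
      rw [e]
      exact Subgroup.subset_closure ⟨_, Dx_map hTT (conj_fix_of_commute hc.2.2.symm) hp, _,
        Dx_map hTT (conj_fix_of_commute hc.2.2.symm) hq, rfl⟩
    exact hle hr
  have hζ' : a * ζ * a⁻¹ ∈ Rx D x := hnorm a ha ζ hζR
  have hζ'c : ∀ r ∈ Rx D x, Commute (a * ζ * a⁻¹) r := by
    intro r hr
    have hr' : a⁻¹ * r * a ∈ Rx D x := by
      have := hnorm a ha r hr
      rw [hainv] at this ⊢
      exact this
    have rr : R ζ (a⁻¹ * r * a) (a * ζ * a⁻¹) r := ⟨a, rfl, by group⟩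
    exact rr.commute_iff.mp (hζc _ hr')
  by_cases hplus : ζ * (a * ζ * a⁻¹) = 1
  · have hinv_a : a * ζ * a⁻¹ = ζ⁻¹ := (inv_eq_of_mul_eq_one_right hplus).symm
    have hinv : ∀ c ∈ Dx D x, c * ζ * c⁻¹ = ζ⁻¹ := by
      intro c hc
      have hr : a * c ∈ Rx D x := Subgroup.subset_closure ⟨a, ha, c, hc, rfl⟩
      have e : c = a * (a * c) := by rw [← mul_assoc, ha2, one_mul]
      have h1 : (a * c) * ζ * (a * c)⁻¹ = ζ := conj_fix_of_commute (hζc _ hr).symm
      calc c * ζ * c⁻¹ = a * ((a * c) * ζ * (a * c)⁻¹) * a⁻¹ := by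
            conv_lhs => rw [e]
            group
        _ = ζ⁻¹ := by rw [h1, hinv_a]
    have hζx : ζ * x * ζ⁻¹ = x := conj_fix_of_commute (Rx_commute hζR)
    have rel : ∀ c ∈ Dx D x, c * ζ = ζ⁻¹ * c ∧ c * ζ⁻¹ = ζ * c ∧ ζ * c * ζ⁻¹ = c * ζ ∧
        ζ⁻¹ * c * ζ = ζ * c := fun c hc => inv_rel hζ3 (hinv c hc)
    obtain ⟨ra1, ra2, ra3, ra4⟩ := rel a ha
    have hb₀ : a * ζ ∈ Dx D x := by
      rw [← ra3]; exact Dx_map hTT hζx ha
    have hb₀a : a * ζ ≠ a := by
      intro h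
      apply hζ1
      exact mul_left_cancel (h.trans (mul_one a).symm)
    refine ⟨a, a * ζ, ?_⟩
    intro b₁ hb₁
    by_contra hcon
    push Not at hcon
    obtain ⟨hb₁a, hb₁b₀, hb₁3⟩ := hcon
    obtain ⟨rb1, rb2, rb3, rb4⟩ := rel b₁ hb₁
    obtain ⟨y, hyDa, hyx⟩ : ∃ y ∈ Dx D a, y ≠ x := by
      obtain ⟨e, he, f, hf, hef⟩ := h2 a haD
      by_cases hex : e = x
      · exact ⟨f, hf, by rw [← hex]; exact Ne.symm hef⟩
      · exact ⟨e, he, hex⟩
    have hyD := hyDa.1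
    have hy2 := hTT.sq y hyD
    have hxy : ¬ Commute x y := hpw a haD x hxa y hyDa (Ne.symm hyx)
    have hay : Commute a y := hyDa.2.2
    have haDy : a ∈ Dx D y := ⟨haD, Ne.symm hyDa.2.1, hay.symm⟩
    have uniq : ∀ c ∈ Dx D x, Commute c y → c = a := by
      intro c hc hcy
      have hcy' : c ≠ y := by rintro rfl; exact hxy hc.2.2
      exact huniq x hx y hyD hxy c ⟨hc, hc.1, hcy', hcy.symm⟩ a ⟨ha, haDy⟩
    obtain ⟨zz, hzz⟩ : ∃ zz, zz = x * y * x := ⟨_, rfl⟩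
    have hzzD : zz ∈ D := by
      rw [hzz]
      have := hTT.conj y hyD x
      rwa [hTT.inv_eq hx] at this
    have rule : ∀ c ∈ Dx D x, c ≠ a → Commute y (c * zz * c) := by
      intro c hc hca
      rw [hzz]
      exact (s5_path hTT haD hc.1 hyD hx (hpw x hx a ha c hc (Ne.symm hca))
        (fun h => hca (uniq c hc h)) (fun h => hxy h.symm) hay hax hc.2.2.symm).2
    have hazz : a * zz * a = zz := by
      have hc : Commute a zz := by rw [hzz]; exact (hax.mul_right hay).mul_right hax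
      rw [hc.eq, mul_assoc, ha2, mul_one]
    have hb₁y : ¬ Commute b₁ y := fun h => hb₁a (uniq b₁ hb₁ h)
    have hb₁2 := hTT.sq b₁ hb₁.1
    obtain ⟨y₁, hy₁⟩ : ∃ y₁, y₁ = b₁ * y * b₁ := ⟨_, rfl⟩
    have hy₁D : y₁ ∈ D := by
      rw [hy₁]
      have := hTT.conj y hyD b₁
      rwa [hTT.inv_eq hb₁.1] at this
    have hyy₁ : ¬ Commute y y₁ := by
      intro hc
      apply hb₁y
      have hbr := hTT.braid b₁ hb₁.1 y hyD hb₁y
      rw [hy₁, hbr] at hc
      have e := hc.eq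
      show b₁ * y = y * b₁
      calc b₁ * y = (y * y) * b₁ * y := by rw [hy2, one_mul]
        _ = y * (y * b₁ * y) := by group
        _ = y * b₁ * y * y := e
        _ = y * b₁ * (y * y) := by group
        _ = y * b₁ := by rw [hy2, mul_one]
    obtain ⟨u₁, hu₁⟩ : ∃ u₁, u₁ = a * (b₁ * zz * b₁) * a := ⟨_, rfl⟩
    obtain ⟨u₂, hu₂⟩ : ∃ u₂, u₂ = ζ⁻¹ * zz * ζ := ⟨_, rfl⟩
    have hu₁D : u₁ ∈ D := by
      have h1 := hTT.conj _ (hTT.conj zz hzzD b₁) a
      rw [hTT.inv_eq hb₁.1, hainv] at h1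
      rw [hu₁]; exact h1
    have hu₂D : u₂ ∈ D := by
      rw [hu₂]; exact hTT.conj' hzzD ζ
    have hyu₁ : Commute y u₁ := by
      rw [hu₁]
      exact (hay.symm.mul_right (rule b₁ hb₁ hb₁a)).mul_right hay.symm
    have hy₁u₁ : Commute y₁ u₁ := by
      rw [hy₁]
      apply commute_conj_invol hb₁2
      have hb' : b₁ * a * b₁ ∈ Dx D x := by
        have := Dx_map hTT (conj_fix_of_commute hb₁.2.2.symm) ha
        rwa [hTT.inv_eq hb₁.1] at this
      have hb'a : b₁ * a * b₁ ≠ a := by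
        intro h
        apply hpw x hx b₁ hb₁ a ha hb₁a
        show b₁ * a = a * b₁
        calc b₁ * a = b₁ * a * (b₁ * b₁) := by rw [hb₁2, mul_one]
          _ = (b₁ * a * b₁) * b₁ := by group
          _ = a * b₁ := by rw [h]
      have e : b₁ * u₁ * b₁ = (b₁ * a * b₁) * zz * (b₁ * a * b₁) := by rw [hu₁]; group
      rw [e]
      exact rule _ hb' hb'a
    have hyu₂ : Commute y u₂ := by
      have e : u₂ = (a * ζ) * zz * (a * ζ) := by
        rw [hu₂]
        calc ζ⁻¹ * zz * ζ = ζ⁻¹ * (a * zz * a) * ζ := by rw [hazz]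
          _ = (ζ⁻¹ * a) * zz * (a * ζ) := by group
          _ = (a * ζ) * zz * (a * ζ) := by rw [← ra1]
      rw [e]
      exact rule _ hb₀ hb₀a
    have hc' : ζ⁻¹ * b₁ * ζ ∈ Dx D x := Dx_map' hTT hζx hb₁
    have hy₁u₂ : Commute y₁ u₂ := by
      rw [hy₁]
      apply commute_conj_invol hb₁2
      have hc'a : ζ⁻¹ * b₁ * ζ ≠ a := by
        intro h
        apply hb₁b₀
        rw [rb4] at h
        calc b₁ = ζ⁻¹ * (ζ * b₁) := by group
          _ = ζ⁻¹ * a := by rw [h]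
          _ = a * ζ := ra1.symm
      have e : b₁ * u₂ * b₁ = (ζ⁻¹ * b₁ * ζ) * zz * (ζ⁻¹ * b₁ * ζ) := by
        rw [hu₂, rb4]
        calc b₁ * (ζ⁻¹ * zz * ζ) * b₁ = (b₁ * ζ⁻¹) * zz * (ζ * b₁) := by group
          _ = (ζ * b₁) * zz * (ζ * b₁) := by rw [rb2]
      rw [e]
      exact rule _ hc' hc'a
    have hxzz : ¬ Commute x zz := by
      intro hc
      apply hxy
      rw [hzz] at hc
      have e := hc.eq
      show x * y = y * x
      calc x * y = x * y * (x * x) := by rw [hx2, mul_one]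
        _ = x * y * x * x := by group
        _ = x * (x * y * x) := e.symm
        _ = (x * x) * y * x := by group
        _ = y * x := by rw [hx2, one_mul]
    have hxu₂ : ¬ Commute x u₂ := by
      intro hc
      rw [hu₂] at hc
      exact hxzz ((commute_conj_of_commute' (Rx_commute hζR) zz).mp hc)
    have hne : u₁ ≠ u₂ := by
      intro heq
      apply hb₁3
      have hb₁u : Commute b₁ u₁ := by
        have hbr := hTT.braid b₁ hb₁.1 a haD (hpw x hx b₁ hb₁ a ha hb₁a)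
        have e : b₁ * u₁ * b₁ = u₁ := by
          calc b₁ * u₁ * b₁ = (b₁ * a * b₁) * zz * (b₁ * a * b₁) := by rw [hu₁]; group
            _ = (a * b₁ * a) * zz * (a * b₁ * a) := by rw [hbr]
            _ = a * (b₁ * (a * zz * a) * b₁) * a := by group
            _ = u₁ := by rw [hazz, hu₁]
        show b₁ * u₁ = u₁ * b₁
        calc b₁ * u₁ = b₁ * u₁ * (b₁ * b₁) := by rw [hb₁2, mul_one]
          _ = (b₁ * u₁ * b₁) * b₁ := by group
          _ = u₁ * b₁ := by rw [e]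
      have hb₁u' : Commute b₁ u₂ := by rw [← heq]; exact hb₁u
      have hd₂ : ζ⁻¹ * a * ζ ∈ Dx D x := Dx_map' hTT hζx ha
      have hd₂u : Commute (ζ⁻¹ * a * ζ) u₂ := by
        rw [hu₂]
        apply commute_conj_conj'
        rw [hzz]; exact (hax.mul_right hay).mul_right hax
      have hb₁ne : b₁ ≠ u₂ := by
        intro h
        rw [← h] at hxu₂
        exact hxu₂ hb₁.2.2
      have hd₂ne : ζ⁻¹ * a * ζ ≠ u₂ := by
        intro h
        rw [← h] at hxu₂
        exact hxu₂ hd₂.2.2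
      have hfin := huniq x hx u₂ hu₂D hxu₂ b₁ ⟨hb₁, hb₁.1, hb₁ne, hb₁u'.symm⟩ (ζ⁻¹ * a * ζ)
        ⟨hd₂, hd₂.1, hd₂ne, hd₂u.symm⟩
      rw [hfin, ra4]
      calc ζ * a = (a * a) * ζ * a := by rw [ha2, one_mul]
        _ = a * (a * ζ) * a := by group
    have hu₁y : u₁ ≠ y := by
      intro h
      rw [h] at hy₁u₁
      exact hyy₁ hy₁u₁.symm
    have hu₁y₁ : u₁ ≠ y₁ := by
      intro h
      rw [h] at hyu₁
      exact hyy₁ hyu₁
    have hu₂y : u₂ ≠ y := by
      intro h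
      rw [h] at hy₁u₂
      exact hyy₁ hy₁u₂.symm
    have hu₂y₁ : u₂ ≠ y₁ := by
      intro h
      rw [h] at hyu₂
      exact hyy₁ hyu₂
    exact hne (huniq y hyD y₁ hy₁D hyy₁ u₁ ⟨⟨hu₁D, hu₁y, hyu₁⟩, ⟨hu₁D, hu₁y₁, hy₁u₁⟩⟩ u₂
      ⟨⟨hu₂D, hu₂y, hyu₂⟩, ⟨hu₂D, hu₂y₁, hy₁u₂⟩⟩)
  · exfalso
    obtain ⟨z, hz⟩ : ∃ z, z = ζ * (a * ζ * a⁻¹) := ⟨_, rfl⟩
    rw [← hz] at hplus
    have hzR : z ∈ Rx D x := by rw [hz]; exact Subgroup.mul_mem _ hζR hζ'
    have hzc : ∀ r ∈ Rx D x, Commute z r := by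
      intro r hr; rw [hz]; exact (hζc r hr).mul_left (hζ'c r hr)
    have hzx : Commute z x := Rx_commute hzR
    have hza : Commute z a := by
      have e : a * z * a⁻¹ = z := by
        calc a * z * a⁻¹ = (a * ζ * a⁻¹) * ((a * a) * ζ * (a * a)⁻¹) := by rw [hz]; group
          _ = (a * ζ * a⁻¹) * ζ := by rw [ha2]; group
          _ = ζ * (a * ζ * a⁻¹) := (hζc _ hζ').eq.symm
          _ = z := hz.symm
      exact (commute_of_conj_fix e).symm
    have hzD : ∀ c ∈ Dx D x, Commute z c := by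
      intro c hc
      have e : c = a * (a * c) := by rw [← mul_assoc, ha2, one_mul]
      rw [e]
      exact hza.mul_right (hzc _ (Subgroup.subset_closure ⟨a, ha, c, hc, rfl⟩))
    have hP : IsPGroup 3 (Subgroup.zpowers z) := hR.to_le (Subgroup.zpowers_le.mpr hzR)
    have hfix := card_modEq_fixed (Subgroup.zpowers z) hP (Dx D a \ {x}) (fun p hp y hy => by
      have hpa : Commute p a := commute_of_mem_zpowers hp hza
      have hpx : Commute p x := commute_of_mem_zpowers hp hzx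
      refine ⟨Dx_map hTT (conj_fix_of_commute hpa) hy.1, ?_⟩
      intro h
      apply hy.2
      exact Set.mem_singleton_iff.mpr (mul_left_cancel (mul_right_cancel
        ((Set.mem_singleton_iff.mp h).trans (conj_fix_of_commute hpx).symm))))
    have hk3 := three_dvd_Dx hTT hpw h2 haD
    have hcard := Set.ncard_sdiff_singleton_add_one hxa (Set.toFinite _)
    have hne : {y | y ∈ Dx D a \ {x} ∧ ∀ p ∈ Subgroup.zpowers z, p * y * p⁻¹ = y}.Nonempty := by
      rw [Set.nonempty_iff_ne_empty]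
      intro he
      rw [he, Set.ncard_empty] at hfix
      have h0 : (Dx D a \ {x}).ncard % 3 = 0 := hfix
      omega
    obtain ⟨y, ⟨hyDa, hyx⟩, hyfix⟩ := hne
    have hzy : Commute z y := zpowers_fix_iff.mp hyfix
    have hyx' : y ≠ x := fun h => hyx (Set.mem_singleton_iff.mpr h)
    have hxy : ¬ Commute x y := hpw a haD x hxa y hyDa (Ne.symm hyx')
    have good_step : ∀ c e : G, c ∈ D → Commute z c → (∀ v ∈ Dx D c, Commute z v) → e ∈ D →
        Commute z e → ¬ Commute e c → ∀ v ∈ Dx D e, Commute z v := by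
      intro c e hc hzc' hgood he hze hec v hv
      have hb := hTT.braid c hc e he (fun h => hec h.symm)
      have hg : (c * e) * c * (c * e)⁻¹ = e := by
        calc (c * e) * c * (c * e)⁻¹ = c * e * c * e⁻¹ * c⁻¹ := by group
          _ = c * e * c * e * c := by rw [hTT.inv_eq he, hTT.inv_eq hc]
          _ = (e * c * e) * e * c := by rw [hb]
          _ = e * c * (e * e) * c := by group
          _ = e * (c * c) := by rw [hTT.sq e he]; group
          _ = e := by rw [hTT.sq c hc, mul_one]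
      have hv' : (c * e)⁻¹ * v * (c * e) ∈ Dx D c := Dx_map' hTT hg hv
      have h1 := hgood _ hv'
      have hzg : Commute z (c * e) := hzc'.mul_right hze
      have e1 : v = (c * e) * ((c * e)⁻¹ * v * (c * e)) * (c * e)⁻¹ := by group
      rw [e1]
      exact (hzg.mul_right h1).mul_right hzg.inv_right
    have good_y : ∀ v ∈ Dx D y, Commute z v :=
      good_step x y hx hzx hzD hyDa.1 hzy (fun h => hxy h.symm)
    have good_Dx : ∀ e ∈ Dx D x, ∀ v ∈ Dx D e, Commute z v := by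
      intro e he
      by_cases hey : Commute e y
      · obtain ⟨b', hb', hb'e⟩ : ∃ b' ∈ Dx D x, b' ≠ e := by
          by_cases hea : e = a
          · exact ⟨b, hb, by rw [hea]; exact Ne.symm hab⟩
          · exact ⟨a, ha, Ne.symm hea⟩
        have hb'y : ¬ Commute b' y := by
          intro hc
          apply hb'e
          have hey' : e ≠ y := by
            intro h
            rw [h] at he
            exact hxy he.2.2
          have hb'y' : b' ≠ y := by
            intro h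
            rw [h] at hb'
            exact hxy hb'.2.2
          exact huniq x hx y hyDa.1 hxy b' ⟨hb', hb'.1, hb'y', hc.symm⟩ e
            ⟨he, he.1, hey', hey.symm⟩
        have good_b' := good_step y b' hyDa.1 hzy good_y hb'.1 (hzD b' hb') hb'y
        exact good_step b' e hb'.1 (hzD b' hb') good_b' he.1 (hzD e he)
          (hpw x hx e he b' hb' (Ne.symm hb'e))
      · exact good_step y e hyDa.1 hzy good_y he.1 (hzD e he) hey
    have hall : ∀ d ∈ D, Commute z d := by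
      intro d hd
      by_cases hdx : d = x
      · rw [hdx]; exact hzx
      by_cases hc : Commute x d
      · exact hzD d ⟨hd, hdx, hc⟩
      · obtain ⟨e, he, he'⟩ := hexist x hx d hd hc
        exact good_Dx e he d ⟨hd, Ne.symm he'.2.1, he'.2.2.symm⟩
    exact hplus (hZ z hall)

end Cfsg.Agent.Lib.Helper55.FischerMoore
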