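import Mathlib

/-!
A module lemma: two commuting automorphisms of order `3` of an elementary abelian `2`-group `V`
whose commutators with `V` lie in subgroups of order at most `4` sharing a nontrivial element
induce the same cyclic group of automorphisms of `V`.
All actions are by conjugation inside an ambient group.
-/

set_option autoImplicit false

namespace Cfsg.Agent.Lib.Helper55.ModThree

variable {M : Type*} [Group M] [Finite M]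

/-- the four elements `1, w, gwg⁻¹, g²wg⁻²` exhaust `W`. -/
theorem four_elts (V W : Subgroup M) (h2 : ∀ v ∈ V, v * v = 1)
    (g : M) (hgV : ∀ v ∈ V, g * v * g⁻¹ ∈ V)
    (hg3 : ∀ v ∈ V, g * (g * (g * v * g⁻¹) * g⁻¹) * g⁻¹ = v)
    (hW : Nat.card W ≤ 4) (hgW : ∀ v ∈ V, v * (g * v * g⁻¹) ∈ W)
    (u : M) (hu : u ∈ V) (hw1 : u * (g * u * g⁻¹) ≠ 1) :
    g * (u * (g * u * g⁻¹)) * g⁻¹ ≠ u * (g * u * g⁻¹) ∧
    (∀ a ∈ W, a = 1 ∨ a = u * (g * u * g⁻¹) ∨ a = g * (u * (g * u * g⁻¹)) * g⁻¹ ∨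
      a = g * (g * (u * (g * u * g⁻¹)) * g⁻¹) * g⁻¹) ∧
    u * (g * u * g⁻¹) ∈ W ∧ g * (u * (g * u * g⁻¹)) * g⁻¹ ∈ W ∧
    g * (g * (u * (g * u * g⁻¹)) * g⁻¹) * g⁻¹ ∈ W := by
  obtain ⟨b, hb⟩ : ∃ b, b = g * u * g⁻¹ := ⟨_, rfl⟩
  obtain ⟨c, hc'⟩ : ∃ c, c = g * b * g⁻¹ := ⟨_, rfl⟩
  have hbV : b ∈ V := hb ▸ hgV u hu
  have hcV : c ∈ V := hc' ▸ hgV b hbV
  have hgc : g * c * g⁻¹ = u := by rw [hc', hb]; exact hg3 u hu
  obtain ⟨w, hw⟩ : ∃ w, w = u * b := ⟨_, rfl⟩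
  have hwV : w ∈ V := hw ▸ V.mul_mem hu hbV
  have hw1' : w ≠ 1 := by rw [hw, hb]; exact hw1
  have e1 : g * w * g⁻¹ = b * c := by rw [hw, hc', hb]; group
  have e2 : g * (g * w * g⁻¹) * g⁻¹ = c * u := by
    rw [e1]
    have : g * (b * c) * g⁻¹ = (g * b * g⁻¹) * (g * c * g⁻¹) := by group
    rw [this, hgc, ← hc']
  have hprod : w * (g * w * g⁻¹) * (g * (g * w * g⁻¹) * g⁻¹) = 1 := by
    rw [e2, e1, hw]
    calc u * b * (b * c) * (c * u) = u * (b * b) * (c * c) * u := by group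
      _ = 1 := by rw [h2 b hbV, h2 c hcV, mul_one, mul_one, h2 u hu]
  have hne : g * w * g⁻¹ ≠ w := by
    intro h
    apply hw1'
    rw [h, h, h2 w hwV, one_mul] at hprod
    exact hprod
  have m0 : w ∈ W := by rw [hw, hb]; exact hgW u hu
  have m1 : g * w * g⁻¹ ∈ W := by rw [e1, hc']; exact hgW b hbV
  have m2 : g * (g * w * g⁻¹) * g⁻¹ ∈ W := by
    rw [e2]
    have := hgW c hcV
    rwa [hgc] at this
  have hg3w : g * (g * (g * w * g⁻¹) * g⁻¹) * g⁻¹ = w := hg3 w hwV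
  -- distinctness
  have d1 : g * w * g⁻¹ ≠ 1 := by
    intro h
    apply hw1'
    have : w = g⁻¹ * (g * w * g⁻¹) * g := by group
    rw [this, h]; group
  have d2 : g * (g * w * g⁻¹) * g⁻¹ ≠ 1 := by
    intro h
    apply d1
    have : g * w * g⁻¹ = g⁻¹ * (g * (g * w * g⁻¹) * g⁻¹) * g := by group
    rw [this, h]; group
  have d3 : g * (g * w * g⁻¹) * g⁻¹ ≠ g * w * g⁻¹ := by
    intro h
    apply hne
    have : g * w * g⁻¹ = g⁻¹ * (g * (g * w * g⁻¹) * g⁻¹) * g := by group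
    rw [this, h]; group
  have d4 : g * (g * w * g⁻¹) * g⁻¹ ≠ w := by
    intro h
    apply hne
    rw [h] at hg3w
    exact hg3w
  classical
  let s : Finset M := {1, w, g * w * g⁻¹, g * (g * w * g⁻¹) * g⁻¹}
  have hs : s.card = 4 := by
    have n1 : (1 : M) ∉ ({w, g * w * g⁻¹, g * (g * w * g⁻¹) * g⁻¹} : Finset M) := by
      simp only [Finset.mem_insert, Finset.mem_singleton, not_or]
      exact ⟨fun h => hw1' h.symm, fun h => d1 h.symm, fun h => d2 h.symm⟩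
    have n2 : w ∉ ({g * w * g⁻¹, g * (g * w * g⁻¹) * g⁻¹} : Finset M) := by
      simp only [Finset.mem_insert, Finset.mem_singleton, not_or]
      exact ⟨fun h => hne h.symm, fun h => d4 h.symm⟩
    have n3 : g * w * g⁻¹ ∉ ({g * (g * w * g⁻¹) * g⁻¹} : Finset M) := by
      simp only [Finset.mem_singleton]
      exact fun h => d3 h.symm
    show (insert 1 (insert w (insert (g * w * g⁻¹) {g * (g * w * g⁻¹) * g⁻¹})) : Finset M).card = 4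
    rw [Finset.card_insert_of_notMem n1, Finset.card_insert_of_notMem n2,
      Finset.card_insert_of_notMem n3, Finset.card_singleton]
  have hsub : (s : Set M) ⊆ (W : Set M) := by
    intro a ha
    have ha' : a ∈ s := ha
    simp only [s, Finset.mem_insert, Finset.mem_singleton] at ha'
    rcases ha' with rfl | rfl | rfl | rfl
    · exact W.one_mem
    · exact m0
    · exact m1
    · exact m2
  have hcard : (W : Set M).ncard ≤ (s : Set M).ncard := by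
    rw [Set.ncard_coe_finset, hs, ← Nat.card_coe_set_eq]
    exact hW
  have heq : (s : Set M) = (W : Set M) := Set.eq_of_subset_of_ncard_le hsub hcard (Set.toFinite _)
  have hw' : u * (g * u * g⁻¹) = w := by rw [hw, hb]
  rw [hw']
  refine ⟨hne, ?_, m0, m1, m2⟩
  intro a ha
  have ha' : a ∈ (s : Set M) := by rw [heq]; exact ha
  have ha'' : a ∈ s := ha'
  simp only [s, Finset.mem_insert, Finset.mem_singleton] at ha''
  exact ha''

/-- a nontrivial element of `W` is a commutator. -/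
theorem exists_comm_form (V W : Subgroup M) (h2 : ∀ v ∈ V, v * v = 1)
    (g : M) (hgV : ∀ v ∈ V, g * v * g⁻¹ ∈ V)
    (hg3 : ∀ v ∈ V, g * (g * (g * v * g⁻¹) * g⁻¹) * g⁻¹ = v)
    (hW : Nat.card W ≤ 4) (hgW : ∀ v ∈ V, v * (g * v * g⁻¹) ∈ W)
    (hgnt : ¬ ∀ v ∈ V, g * v * g⁻¹ = v) (z : M) (hzW : z ∈ W) (hz1 : z ≠ 1) :
    ∃ u ∈ V, z = u * (g * u * g⁻¹) := by
  push Not at hgnt
  obtain ⟨v₀, hv₀, hv₀g⟩ := hgnt
  have hw₀ : v₀ * (g * v₀ * g⁻¹) ≠ 1 := by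
    intro h
    apply hv₀g
    have h1 : g * v₀ * g⁻¹ = v₀⁻¹ := eq_inv_of_mul_eq_one_right h
    rw [h1]
    exact inv_eq_of_mul_eq_one_right (h2 v₀ hv₀)
  obtain ⟨-, hall, -, -, -⟩ := four_elts V W h2 g hgV hg3 hW hgW v₀ hv₀ hw₀
  rcases hall z hzW with h | h | h | h
  · exact absurd h hz1
  · exact ⟨v₀, hv₀, h⟩
  · refine ⟨g * v₀ * g⁻¹, hgV v₀ hv₀, ?_⟩
    rw [h]; group
  · refine ⟨g * (g * v₀ * g⁻¹) * g⁻¹, hgV _ (hgV v₀ hv₀), ?_⟩
    rw [h]; group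

/-- the case where `y` and `x` agree on `z`. -/
theorem module_core (V W W' : Subgroup M) (hc : ∀ u ∈ V, ∀ v ∈ V, u * v = v * u)
    (h2 : ∀ v ∈ V, v * v = 1)
    (x y : M) (hxV : ∀ v ∈ V, x * v * x⁻¹ ∈ V) (hyV : ∀ v ∈ V, y * v * y⁻¹ ∈ V)
    (hxy : ∀ v ∈ V, x * (y * v * y⁻¹) * x⁻¹ = y * (x * v * x⁻¹) * y⁻¹)
    (hx3 : ∀ v ∈ V, x * (x * (x * v * x⁻¹) * x⁻¹) * x⁻¹ = v)
    (hy3 : ∀ v ∈ V, y * (y * (y * v * y⁻¹) * y⁻¹) * y⁻¹ = v)
    (hW : Nat.card W ≤ 4) (hW' : Nat.card W' ≤ 4)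
    (hxW : ∀ v ∈ V, v * (x * v * x⁻¹) ∈ W) (hyW' : ∀ v ∈ V, v * (y * v * y⁻¹) ∈ W')
    (hxnt : ¬ ∀ v ∈ V, x * v * x⁻¹ = v) (hynt : ¬ ∀ v ∈ V, y * v * y⁻¹ = v)
    (z : M) (hzW : z ∈ W) (hzW' : z ∈ W') (hz1 : z ≠ 1)
    (hyx : y * z * y⁻¹ = x * z * x⁻¹) :
    ∀ v ∈ V, y * v * y⁻¹ = x * v * x⁻¹ := by
  obtain ⟨u, hu, hzu⟩ := exists_comm_form V W h2 x hxV hx3 hW hxW hxnt z hzW hz1
  obtain ⟨u', hu', hzu'⟩ := exists_comm_form V W' h2 y hyV hy3 hW' hyW' hynt z hzW' hz1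
  have hzV : z ∈ V := by rw [hzu]; exact V.mul_mem hu (hxV u hu)
  obtain ⟨hxz, hWall, -, hxzW, hxxzW⟩ := four_elts V W h2 x hxV hx3 hW hxW u hu (hzu ▸ hz1)
  rw [← hzu] at hxz hWall hxzW hxxzW
  obtain ⟨hyz, hW'all, -, hyzW', hyyzW'⟩ :=
    four_elts V W' h2 y hyV hy3 hW' hyW' u' hu' (hzu' ▸ hz1)
  rw [← hzu'] at hyz hW'all hyzW' hyyzW'
  have h3a : ∀ a ∈ W, y * a * y⁻¹ = x * a * x⁻¹ := by
    intro a ha
    rcases hWall a ha with h | h | h | h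
    · rw [h]; group
    · rw [h]; exact hyx
    · rw [h, ← hxy z hzV, hyx]
    · rw [h, ← hxy _ (hxV z hzV), ← hxy z hzV, hyx]
  have hW'W : ∀ a ∈ W', a ∈ W := by
    intro a ha
    rcases hW'all a ha with h | h | h | h
    · rw [h]; exact W.one_mem
    · rw [h]; exact hzW
    · rw [h, hyx]; exact hxzW
    · rw [h, hyx, h3a _ hxzW]; exact hxxzW
  have h3b : ∀ c ∈ V, x * c * x⁻¹ = c → y * c * y⁻¹ = c := by
    intro c hcV hxc
    have hb : c * (y * c * y⁻¹) ∈ W := hW'W _ (hyW' c hcV)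
    have hxb : x * (c * (y * c * y⁻¹)) * x⁻¹ = c * (y * c * y⁻¹) := by
      have e : x * (c * (y * c * y⁻¹)) * x⁻¹ = (x * c * x⁻¹) * (x * (y * c * y⁻¹) * x⁻¹) := by
        group
      rw [e, hxy c hcV, hxc]
    have hb1 : c * (y * c * y⁻¹) = 1 := by
      rcases hWall _ hb with h | h | h | h
      · exact h
      · exfalso
        rw [h] at hxb
        exact hxz hxb
      · exfalso
        rw [h] at hxb
        apply hxz
        have e : x * z * x⁻¹ = x⁻¹ * (x * (x * z * x⁻¹) * x⁻¹) * x := by group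
        rw [e, hxb]; group
      · exfalso
        rw [h, hx3 z hzV] at hxb
        apply hxz
        have e := hx3 z hzV
        rw [← hxb] at e
        exact e
    have h1 : y * c * y⁻¹ = c⁻¹ := eq_inv_of_mul_eq_one_right hb1
    rw [h1]
    exact inv_eq_of_mul_eq_one_right (h2 c hcV)
  intro v hv
  obtain ⟨b, hb⟩ : ∃ b, b = x * v * x⁻¹ := ⟨_, rfl⟩
  obtain ⟨c, hc'⟩ : ∃ c, c = x * b * x⁻¹ := ⟨_, rfl⟩
  have hbV : b ∈ V := hb ▸ hxV v hv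
  have hcV : c ∈ V := hc' ▸ hxV b hbV
  have hxc : x * c * x⁻¹ = v := by rw [hc', hb]; exact hx3 v hv
  have hr : b * c ∈ W := by rw [hc']; exact hxW b hbV
  have hn : x * (v * b * c) * x⁻¹ = v * b * c := by
    have e : x * (v * b * c) * x⁻¹ = (x * v * x⁻¹) * (x * b * x⁻¹) * (x * c * x⁻¹) := by group
    rw [e, ← hb, ← hc', hxc, mul_assoc v b c]
    exact hc (b * c) (V.mul_mem hbV hcV) v hv
  have hv' : (v * b * c) * (b * c) = v := by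
    have e : (v * b * c) * (b * c) = v * ((b * c) * (b * c)) := by group
    rw [e, h2 _ (V.mul_mem hbV hcV), mul_one]
  have hnV : v * b * c ∈ V := V.mul_mem (V.mul_mem hv hbV) hcV
  have key : y * ((v * b * c) * (b * c)) * y⁻¹ = x * ((v * b * c) * (b * c)) * x⁻¹ := by
    have e1 : y * ((v * b * c) * (b * c)) * y⁻¹ =
        (y * (v * b * c) * y⁻¹) * (y * (b * c) * y⁻¹) := by group
    have e2 : x * ((v * b * c) * (b * c)) * x⁻¹ =
        (x * (v * b * c) * x⁻¹) * (x * (b * c) * x⁻¹) := by group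
    rw [e1, e2, h3b _ hnV hn, hn, h3a _ hr]
  rw [hv'] at key
  exact key

/-- **The module lemma.** -/
theorem module_lemma (V W W' : Subgroup M) (hc : ∀ u ∈ V, ∀ v ∈ V, u * v = v * u)
    (h2 : ∀ v ∈ V, v * v = 1)
    (x y : M) (hxV : ∀ v ∈ V, x * v * x⁻¹ ∈ V) (hyV : ∀ v ∈ V, y * v * y⁻¹ ∈ V)
    (hxy : ∀ v ∈ V, x * (y * v * y⁻¹) * x⁻¹ = y * (x * v * x⁻¹) * y⁻¹)
    (hx3 : ∀ v ∈ V, x * (x * (x * v * x⁻¹) * x⁻¹) * x⁻¹ = v)
    (hy3 : ∀ v ∈ V, y * (y * (y * v * y⁻¹) * y⁻¹) * y⁻¹ = v)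
    (hW : Nat.card W ≤ 4) (hW' : Nat.card W' ≤ 4)
    (hxW : ∀ v ∈ V, v * (x * v * x⁻¹) ∈ W) (hyW' : ∀ v ∈ V, v * (y * v * y⁻¹) ∈ W')
    (hxnt : ¬ ∀ v ∈ V, x * v * x⁻¹ = v) (hynt : ¬ ∀ v ∈ V, y * v * y⁻¹ = v)
    (z : M) (hzW : z ∈ W) (hzW' : z ∈ W') (hz1 : z ≠ 1) :
    (∀ v ∈ V, y * v * y⁻¹ = x * v * x⁻¹) ∨
      (∀ v ∈ V, y * v * y⁻¹ = x * (x * v * x⁻¹) * x⁻¹) := by
  obtain ⟨u, hu, hzu⟩ := exists_comm_form V W h2 x hxV hx3 hW hxW hxnt z hzW hz1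
  obtain ⟨u', hu', hzu'⟩ := exists_comm_form V W' h2 y hyV hy3 hW' hyW' hynt z hzW' hz1
  have hzV : z ∈ V := by rw [hzu]; exact V.mul_mem hu (hxV u hu)
  obtain ⟨hxz, -, -, -, -⟩ := four_elts V W h2 x hxV hx3 hW hxW u hu (hzu ▸ hz1)
  rw [← hzu] at hxz
  obtain ⟨hyz, hW'all, -, -, -⟩ := four_elts V W' h2 y hyV hy3 hW' hyW' u' hu' (hzu' ▸ hz1)
  rw [← hzu'] at hyz hW'all
  have hxzW' : x * z * x⁻¹ ∈ W' := by
    have h1 := hyW' (x * u' * x⁻¹) (hxV u' hu')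
    have h3 : x * z * x⁻¹ = (x * u' * x⁻¹) * (y * (x * u' * x⁻¹) * y⁻¹) := by
      rw [← hxy u' hu', hzu']; group
    rw [h3]; exact h1
  rcases hW'all _ hxzW' with h | h | h | h
  · exfalso
    apply hz1
    have e : z = x⁻¹ * (x * z * x⁻¹) * x := by group
    rw [e, h]; group
  · exact absurd h hxz
  · left
    exact module_core V W W' hc h2 x y hxV hyV hxy hx3 hy3 hW hW' hxW hyW' hxnt hynt z hzW hzW'
      hz1 h.symm
  · right
    have hy'V : ∀ v ∈ V, (y * y) * v * (y * y)⁻¹ ∈ V := by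
      intro v hv
      have e : (y * y) * v * (y * y)⁻¹ = y * (y * v * y⁻¹) * y⁻¹ := by group
      rw [e]; exact hyV _ (hyV v hv)
    have hxy' : ∀ v ∈ V, x * ((y * y) * v * (y * y)⁻¹) * x⁻¹ =
        (y * y) * (x * v * x⁻¹) * (y * y)⁻¹ := by
      intro v hv
      have e1 : (y * y) * v * (y * y)⁻¹ = y * (y * v * y⁻¹) * y⁻¹ := by group
      have e2 : (y * y) * (x * v * x⁻¹) * (y * y)⁻¹ = y * (y * (x * v * x⁻¹) * y⁻¹) * y⁻¹ := by
        group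
      rw [e1, e2, hxy _ (hyV v hv), hxy v hv]
    have hy'3 : ∀ v ∈ V,
        (y * y) * ((y * y) * ((y * y) * v * (y * y)⁻¹) * (y * y)⁻¹) * (y * y)⁻¹ = v := by
      intro v hv
      have e : (y * y) * ((y * y) * ((y * y) * v * (y * y)⁻¹) * (y * y)⁻¹) * (y * y)⁻¹ =
          y * (y * (y * (y * (y * (y * v * y⁻¹) * y⁻¹) * y⁻¹) * y⁻¹) * y⁻¹) * y⁻¹ := by group
      rw [e, hy3 v hv, hy3 v hv]
    have hy'W' : ∀ v ∈ V, v * ((y * y) * v * (y * y)⁻¹) ∈ W' := by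
      intro v hv
      have e : v * ((y * y) * v * (y * y)⁻¹) =
          (v * (y * v * y⁻¹)) * ((y * v * y⁻¹) * (y * (y * v * y⁻¹) * y⁻¹)) := by
        have e1 : (v * (y * v * y⁻¹)) * ((y * v * y⁻¹) * (y * (y * v * y⁻¹) * y⁻¹)) =
            v * ((y * v * y⁻¹) * (y * v * y⁻¹)) * (y * (y * v * y⁻¹) * y⁻¹) := by group
        rw [e1, h2 _ (hyV v hv), mul_one]; group
      rw [e]
      exact W'.mul_mem (hyW' v hv) (hyW' _ (hyV v hv))
    have hy'nt : ¬ ∀ v ∈ V, (y * y) * v * (y * y)⁻¹ = v := by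
      intro h'
      apply hynt
      intro v hv
      have e : (y * y) * ((y * y) * v * (y * y)⁻¹) * (y * y)⁻¹ =
          y * (y * (y * (y * v * y⁻¹) * y⁻¹) * y⁻¹) * y⁻¹ := by group
      rw [h' v hv, h' v hv, hy3 _ (hyV v hv)] at e
      exact e.symm
    have hyx' : (y * y) * z * (y * y)⁻¹ = x * z * x⁻¹ := by
      rw [h]; group
    have hcore := module_core V W W' hc h2 x (y * y) hxV hy'V hxy' hx3 hy'3 hW hW' hxW hy'W'
      hxnt hy'nt z hzW hzW' hz1 hyx'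
    intro v hv
    have e : y * v * y⁻¹ = (y * y) * ((y * y) * v * (y * y)⁻¹) * (y * y)⁻¹ := by
      have e1 : (y * y) * ((y * y) * v * (y * y)⁻¹) * (y * y)⁻¹ =
          y * (y * (y * (y * v * y⁻¹) * y⁻¹) * y⁻¹) * y⁻¹ := by group
      rw [e1, hy3 _ (hyV v hv)]
    rw [e, hcore v hv, hcore _ (hxV v hv)]

/-- the norm of a commutator is trivial. -/
theorem prod_eq_one (V : Subgroup M) (h2 : ∀ v ∈ V, v * v = 1)
    (g : M) (hgV : ∀ v ∈ V, g * v * g⁻¹ ∈ V)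
    (hg3 : ∀ v ∈ V, g * (g * (g * v * g⁻¹) * g⁻¹) * g⁻¹ = v) (u : M) (hu : u ∈ V) :
    (u * (g * u * g⁻¹)) * (g * (u * (g * u * g⁻¹)) * g⁻¹) *
      (g * (g * (u * (g * u * g⁻¹)) * g⁻¹) * g⁻¹) = 1 := by
  obtain ⟨b, hb⟩ : ∃ b, b = g * u * g⁻¹ := ⟨_, rfl⟩
  obtain ⟨c, hc'⟩ : ∃ c, c = g * b * g⁻¹ := ⟨_, rfl⟩
  have hbV : b ∈ V := hb ▸ hgV u hu
  have hcV : c ∈ V := hc' ▸ hgV b hbV
  have hgc : g * c * g⁻¹ = u := by rw [hc', hb]; exact hg3 u hu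
  have e1 : g * (u * (g * u * g⁻¹)) * g⁻¹ = b * c := by rw [hc', hb]; group
  have e2 : g * (g * (u * (g * u * g⁻¹)) * g⁻¹) * g⁻¹ = c * u := by
    rw [e1]
    have : g * (b * c) * g⁻¹ = (g * b * g⁻¹) * (g * c * g⁻¹) := by group
    rw [this, hgc, ← hc']
  rw [e2, e1, ← hb]
  calc u * b * (b * c) * (c * u) = u * (b * b) * (c * c) * u := by group
    _ = 1 := by rw [h2 b hbV, h2 c hcV, mul_one, mul_one, h2 u hu]

end Cfsg.Agent.Lib.Helper55.ModThree
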